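import Cfsg.Agent.Lib.Helper8.Sl4.Defs
import Cfsg.Agent.Lib.Helper5.AschC.ORB2

set_option autoImplicit false

namespace Cfsg.Agent.Lib.Helper8.Sl4

open Cfsg Cfsg.Geo Cfsg.Agent.Lib.Helper77.Asch Cfsg.Agent.Lib.Helper5.AschC
open scoped MatrixGroups Matrix

variable {n : ℕ} {F : Type*} [Field F]

theorem cenk_gen (K : Subalgebra F (Matrix (Fin n) (Fin n) F)) (hK : IsFieldSubalgebra 2 K) :
    ∃ θ ∈ K, ∀ k ∈ K, ∃ x y : F, k = x • (1 : Matrix (Fin n) (Fin n) F) + y • θ := by
  have hne : K ≠ ⊥ := by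
    intro h
    have h2 := hK.finrank_eq
    rw [h] at h2
    by_cases hn : Nontrivial (Matrix (Fin n) (Fin n) F)
    · rw [Subalgebra.finrank_bot] at h2
      exact absurd h2 (by norm_num)
    · rw [not_nontrivial_iff_subsingleton] at hn
      have : Module.finrank F (⊥ : Subalgebra F (Matrix (Fin n) (Fin n) F)) = 0 := by
        have : Subsingleton (⊥ : Subalgebra F (Matrix (Fin n) (Fin n) F)) :=
          ⟨fun a b => Subtype.ext (Subsingleton.elim _ _)⟩
        exact Module.finrank_zero_of_subsingleton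
      omega
  obtain ⟨θ, hθ, hθb⟩ : ∃ θ ∈ K, θ ∉ (⊥ : Subalgebra F (Matrix (Fin n) (Fin n) F)) := by
    by_contra hcon
    push Not at hcon
    exact hne (eq_bot_iff.2 hcon)
  refine ⟨θ, hθ, ?_⟩
  have hli : LinearIndependent F ![(1 : K), (⟨θ, hθ⟩ : K)] := by
    rw [LinearIndependent.pair_iff]
    intro s t h
    have h' : s • (1 : Matrix (Fin n) (Fin n) F) + t • θ = 0 := congrArg Subtype.val h
    have ht : t = 0 := by
      by_contra ht
      apply hθb
      rw [Algebra.mem_bot]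
      refine ⟨-(t⁻¹ * s), ?_⟩
      rw [Algebra.algebraMap_eq_smul_one]
      have : θ = t⁻¹ • (t • θ) := by rw [smul_smul, inv_mul_cancel₀ ht, one_smul]
      rw [this, eq_neg_of_add_eq_zero_right h', smul_neg, smul_smul, neg_smul]
    subst ht
    refine ⟨?_, rfl⟩
    by_contra hs
    rw [zero_smul, add_zero] at h'
    have h1 : (1 : Matrix (Fin n) (Fin n) F) = 0 := by
      have : (1 : Matrix (Fin n) (Fin n) F) = s⁻¹ • (s • 1) := by rw [smul_smul, inv_mul_cancel₀ hs, one_smul]
      rw [this, h', smul_zero]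
    apply hθb
    have : θ = 0 := by rw [← mul_one θ, h1, mul_zero]
    rw [this]; exact Subalgebra.zero_mem _
  have hspan := hli.span_eq_top_of_card_eq_finrank (by simp [hK.finrank_eq])
  intro k hk
  have hmem : (⟨k, hk⟩ : K) ∈ Submodule.span F (Set.range ![(1 : K), (⟨θ, hθ⟩ : K)]) := by
    rw [hspan]; trivial
  have hr : Set.range ![(1 : K), (⟨θ, hθ⟩ : K)] = {(1 : K), (⟨θ, hθ⟩ : K)} := by
    ext z; simp; tauto
  rw [hr, Submodule.mem_span_pair] at hmem
  obtain ⟨x, y, hxy⟩ := hmem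
  exact ⟨x, y, (congrArg Subtype.val hxy).symm⟩

theorem cenk_nzd (K : Subalgebra F (Matrix (Fin n) (Fin n) F)) {r : ℕ} (hK : IsFieldSubalgebra r K)
    (x y : Matrix (Fin n) (Fin n) F) (hx : x ∈ K) (h : x * y = 0) : x = 0 ∨ y = 0 := by
  by_cases hx0 : x = 0
  · exact Or.inl hx0
  · right
    obtain ⟨x', hx', h1⟩ := hK.inv x hx hx0
    have h2 : x' * x = 1 := by rw [hK.comm x' hx' x hx, h1]
    calc y = (x' * x) * y := by rw [h2, one_mul]
      _ = x' * (x * y) := by rw [mul_assoc]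
      _ = 0 := by rw [h, mul_zero]

/-- CENK. -/
theorem commutator_centralizes_field (G : Subgroup (GL (Fin n) F)) (K : Subalgebra F (Matrix (Fin n) (Fin n) F))
    (hK : IsFieldSubalgebra 2 K) (hG : G ≤ subalgebraNormalizer K) :
    ∀ g ∈ ⁅G, G⁆, ∀ k ∈ K, (g : Matrix (Fin n) (Fin n) F) * k = k * (g : Matrix (Fin n) (Fin n) F) := by
  obtain ⟨θ, hθ, hgen⟩ := cenk_gen K hK
  obtain ⟨d, t, hsq⟩ := hgen (θ * θ) (K.mul_mem hθ hθ)
  have hone : ∀ c : F, c • (1 : Matrix (Fin n) (Fin n) F) ∈ K := fun c => K.smul_mem K.one_mem c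
  -- the two possible images
  have himg : ∀ g ∈ G, conjA g θ = θ ∨ conjA g θ = t • 1 - θ := by
    intro g hg
    have hmem : conjA g θ ∈ K := (hG hg θ).1 hθ
    have hsq' : conjA g θ * conjA g θ = d • 1 + t • conjA g θ := by
      rw [← map_mul, hsq, map_add, map_smul, map_smul, map_one]
    have hcomm : conjA g θ * θ = θ * conjA g θ := hK.comm _ hmem _ hθ
    have hprod : (conjA g θ - θ) * (conjA g θ - (t • 1 - θ)) = 0 := by
      have : (conjA g θ - θ) * (conjA g θ - (t • 1 - θ))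
          = conjA g θ * conjA g θ - θ * θ - t • (conjA g θ) + t • θ + (conjA g θ * θ - θ * conjA g θ) := by
        simp only [sub_mul, mul_sub, smul_mul_assoc, mul_smul_comm, one_mul, mul_one, smul_sub]
        abel
      rw [this, hsq', hsq, hcomm]
      abel
    rcases cenk_nzd K hK _ _ (K.sub_mem hmem hθ) hprod with h | h
    · exact Or.inl (sub_eq_zero.1 h)
    · exact Or.inr (sub_eq_zero.1 h)
  have hflip : ∀ g ∈ G, conjA g θ = t • 1 - θ → conjA g (t • 1 - θ) = θ := by
    intro g _ h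
    rw [map_sub, map_smul, map_one, h]; abel
  have hfix : ∀ g ∈ G, conjA g θ = θ → conjA g (t • 1 - θ) = t • 1 - θ := by
    intro g _ h
    rw [map_sub, map_smul, map_one, h]
  have hcm : ∀ a ∈ G, ∀ b ∈ G, conjA a (conjA b θ) = conjA b (conjA a θ) := by
    intro a ha b hb
    rcases himg a ha with h1 | h1 <;> rcases himg b hb with h2 | h2
    · rw [h1, h2, h1]
    · rw [h1, h2, hfix a ha h1]
    · rw [h1, h2, h1, hfix b hb h2]
    · rw [h1, h2, hflip a ha h1, hflip b hb h2]
  -- the centraliser of θ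
  let C : Subgroup (GL (Fin n) F) :=
    { carrier := {g | conjA g θ = θ}
      mul_mem' := by
        intro a b ha hb
        change conjA (a * b) θ = θ
        rw [orb2_conj_mul, hb, ha]
      one_mem' := orb2_conj_one θ
      inv_mem' := by
        intro a ha
        change conjA a⁻¹ θ = θ
        have := orb2_inv_conj a θ
        rwa [ha] at this }
  have hle : ⁅G, G⁆ ≤ C := by
    rw [Subgroup.commutator_le]
    intro a ha b hb
    rw [commutatorElement_def]
    change conjA (a * b * a⁻¹ * b⁻¹) θ = θ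
    rw [orb2_conj_mul, orb2_conj_mul, orb2_conj_mul,
      hcm a⁻¹ (G.inv_mem ha) b⁻¹ (G.inv_mem hb), orb2_conj_inv, orb2_conj_inv]
  intro g hg k hk
  have hgθ : conjA g θ = θ := hle hg
  have hgθ' : (g : Matrix (Fin n) (Fin n) F) * θ = θ * (g : Matrix (Fin n) (Fin n) F) := by
    have h := congrArg (fun M => M * (g : Matrix (Fin n) (Fin n) F)) hgθ
    simp only [conjA_apply, mul_assoc] at h
    rw [← Units.val_mul, inv_mul_cancel, Units.val_one, mul_one] at h
    exact h
  obtain ⟨x, y, rfl⟩ := hgen k hk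
  rw [mul_add, add_mul, mul_smul_comm, mul_smul_comm, smul_mul_assoc, smul_mul_assoc, hgθ', mul_one, one_mul]

end Cfsg.Agent.Lib.Helper8.Sl4
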