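import Cfsg.Agent.Lib.Helper8.Sl4.Defs

set_option autoImplicit false

namespace Cfsg.Agent.Lib.Helper8.Sl4

open Cfsg Cfsg.Geo Cfsg.Agent.Lib.Helper77.Asch
open scoped MatrixGroups Matrix

variable {n : ℕ} {F : Type*} [Field F]

/-- the isometry group of `Q`. -/
def comqIso (Q : (Fin n → F) → F) : Subgroup (GL (Fin n) F) where
  carrier := {g | ∀ v, Q ((g : Matrix (Fin n) (Fin n) F) *ᵥ v) = Q v}
  mul_mem' {a b} ha hb := by
    intro v
    rw [Units.val_mul, ← Matrix.mulVec_mulVec, ha, hb]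
  one_mem' := fun v => by simp
  inv_mem' {a} ha := by
    intro v
    have h := ha (((a⁻¹ : GL (Fin n) F) : Matrix (Fin n) (Fin n) F) *ᵥ v)
    rw [Matrix.mulVec_mulVec, ← Units.val_mul, mul_inv_cancel, Units.val_one, Matrix.one_mulVec] at h
    exact h.symm

/-- COMQ. -/
theorem commutator_fixes_quad (G : Subgroup (GL (Fin n) F)) (Q : (Fin n → F) → F)
    (hG : G ≤ quadSimilarityGroup Q) : FixesQuadForm (matrixSet ⁅G, G⁆) Q := by
  have hle : ⁅G, G⁆ ≤ comqIso Q := by
    rw [Subgroup.commutator_le]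
    intro a ha b hb v
    obtain ⟨c, hc⟩ := hG ha
    obtain ⟨d, hd⟩ := hG hb
    obtain ⟨c', hc'⟩ := (quadSimilarityGroup Q).inv_mem (hG ha)
    obtain ⟨d', hd'⟩ := (quadSimilarityGroup Q).inv_mem (hG hb)
    have hcc : ∀ v, (c : F) * ((c' : F) * Q v) = Q v := by
      intro v
      rw [← hc', ← hc, Matrix.mulVec_mulVec, ← Units.val_mul, mul_inv_cancel, Units.val_one, Matrix.one_mulVec]
    have hdd : ∀ v, (d : F) * ((d' : F) * Q v) = Q v := by
      intro v
      rw [← hd', ← hd, Matrix.mulVec_mulVec, ← Units.val_mul, mul_inv_cancel, Units.val_one, Matrix.one_mulVec]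
    rw [commutatorElement_def, Units.val_mul, Units.val_mul, Units.val_mul, ← Matrix.mulVec_mulVec,
      ← Matrix.mulVec_mulVec, ← Matrix.mulVec_mulVec, hc, hd, hc', hd']
    calc (c : F) * ((d : F) * ((c' : F) * ((d' : F) * Q v)))
        = (c : F) * ((c' : F) * ((d : F) * ((d' : F) * Q v))) := by ring
      _ = (c : F) * ((c' : F) * Q v) := by rw [hdd]
      _ = Q v := hcc v
  rintro _ ⟨g, hg, rfl⟩ v
  exact hle hg v

end Cfsg.Agent.Lib.Helper8.Sl4
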