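import Cfsg.Agent.Lib.Helper77.Asch.Final

/-! Ladder ASL4: Aschbacher's theorem for SL_4(q) (definitions). -/

set_option autoImplicit false

namespace Cfsg.Agent.Lib.Helper8.Sl4

open Cfsg Cfsg.Geo Cfsg.Agent.Lib.Helper77.Asch
open scoped MatrixGroups Matrix

variable {n : ℕ} {F : Type*} [Field F]

/-- block index of `i : Fin 4`. -/
def hi : Fin 4 → Fin 2 := ![0, 0, 1, 1]

/-- index inside the block of `i : Fin 4`. -/
def lo : Fin 4 → Fin 2 := ![0, 1, 0, 1]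

/-- the tensor (Kronecker) product `c ⊗ a` of two `2 × 2` matrices as a `4 × 4` matrix; `tens 1 X = diag(X, X)`. -/
def tens (c a : Matrix (Fin 2) (Fin 2) F) : Matrix (Fin 4) (Fin 4) F :=
  fun i j => c (hi i) (hi j) * a (lo i) (lo j)

/-- the determinant form on `F^4 = M_2(F)`. -/
def detQ (v : Fin 4 → F) : F := v 0 * v 3 - v 1 * v 2

/-- `M` is block diagonal `diag(X, X)`, `X ∈ M₂`, in the basis given by `B`. -/
structure Blk (M : Subgroup (GL (Fin 4) F)) (B : GL (Fin 4) F) (M₂ : Subgroup (GL (Fin 2) F)) : Prop where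
  fwd : ∀ x ∈ M, ∃ X ∈ M₂, ((B * x * B⁻¹ : GL (Fin 4) F) : Matrix (Fin 4) (Fin 4) F) =
    tens 1 (X : Matrix (Fin 2) (Fin 2) F)
  bwd : ∀ X ∈ M₂, ∃ x ∈ M, ((B * x * B⁻¹ : GL (Fin 4) F) : Matrix (Fin 4) (Fin 4) F) =
    tens 1 (X : Matrix (Fin 2) (Fin 2) F)

/-- `R` is an absolutely irreducible group of exponent 4, of class 2 with commutators `± 1`, containing all scalars of
order dividing 4 (so `R = 2^(1+4)` or `4 ∘ 2^(1+4)`). -/
structure Ex4 (R : Subgroup (GL (Fin 4) F)) : Prop where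
  two : (2 : F) ≠ 0
  exp : ∀ g ∈ R, g ^ 4 = 1
  sq : ∀ g ∈ R, g ^ 2 = 1 ∨ g ^ 2 = sc (-1)
  comm : ∀ x ∈ R, ∀ y ∈ R, x * y = y * x ∨ x * y = sc (-1) * (y * x)
  abs : ActsAbsolutelyIrreducibly (matrixSet R)
  sat : ∀ z ∈ scalars (Fin 4) F, z ^ 4 = 1 → z ∈ R

/-- `g` is monomial in the basis `b`, with permutation in the Klein four group (1 or a fixed point free involution) and
coefficients `c j` which are 4-th roots of unity with equal squares and product 1. -/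
def IsPauli (b : Module.Basis (Fin 4) F (Fin 4 → F)) (g : GL (Fin 4) F) : Prop :=
  ∃ (π : Equiv.Perm (Fin 4)) (c : Fin 4 → F), (π = 1 ∨ (π * π = 1 ∧ ∀ j, π j ≠ j)) ∧
    (∀ j, (g : Matrix (Fin 4) (Fin 4) F) *ᵥ b j = c j • b (π j)) ∧ (∀ j k, c j ^ 2 = c k ^ 2) ∧
    (∀ j, c j ^ 4 = 1) ∧ ∏ j, c j = 1

/-- `H` lies in a member of one of the geometric classes relevant in dimension 4. -/
def InGeo4 [Fintype F] (H : Subgroup (GL (Fin 4) F)) : Prop :=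
  (∃ W : Submodule F (Fin 4 → F), W ≠ ⊥ ∧ W ≠ ⊤ ∧ H ≤ subspaceStabilizer W) ∨
  (∃ D : Fin 4 → Submodule F (Fin 4 → F), IsMDecomposition 1 D ∧ H ≤ decompositionStabilizer D) ∨
  (∃ D : Fin 2 → Submodule F (Fin 4 → F), IsMDecomposition 2 D ∧ H ≤ decompositionStabilizer D) ∨
  (∃ K : Subalgebra F (Matrix (Fin 4) (Fin 4) F), IsFieldSubalgebra 2 K ∧ H ≤ subalgebraNormalizer K) ∨
  (∃ (F₀ : Subfield F) (r : ℕ) (P : GL (Fin 4) F), r.Prime ∧ Fintype.card F = Nat.card F₀ ^ r ∧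
      H ≤ subfieldSubgroup F₀ P) ∨
  (∃ R : Subgroup (GL (Fin 4) F), IsLinearSymplecticTypeData 2 R ∧ H ≤ subgroupNormalizer R) ∨
  (Odd (Fintype.card F) ∧ ∃ Q : (Fin 4 → F) → F, IsNondegenerateQuadraticForm Q ∧ H ≤ quadSimilarityGroup Q) ∨
  (∃ f : (Fin 4 → F) → (Fin 4 → F) → F, IsSymplecticForm f ∧ H ≤ similarityGroup f) ∨
  (∃ (σ : F ≃+* F) (f : (Fin 4 → F) → (Fin 4 → F) → F), IsUnitaryForm σ f ∧ H ≤ similarityGroup f)

end Cfsg.Agent.Lib.Helper8.Sl4
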