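import Cfsg.Agent.Lib.Helper8.Sl4.Defs

set_option autoImplicit false

namespace Cfsg.Agent.Lib.Helper8.Sl4

open Cfsg Cfsg.Geo Cfsg.Agent.Lib.Helper77.Asch
open scoped MatrixGroups Matrix

variable {n : ℕ} {F : Type*} [Field F]

/-- the standard alternating form in coordinates indexed by `Fin 2 ⊕ Fin 2`. -/
def plsW (x y : Fin 2 ⊕ Fin 2 → F) : F :=
  (x (Sum.inl 0) * y (Sum.inl 1) - x (Sum.inl 1) * y (Sum.inl 0)) +
  (x (Sum.inr 0) * y (Sum.inr 1) - x (Sum.inr 1) * y (Sum.inr 0))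

theorem pls_sq [Fintype F] (hq : Fintype.card F ≤ 3) (x : F) (hx : x ≠ 0) : x ^ 2 = 1 := by
  have h1 := FiniteField.pow_card_sub_one_eq_one x hx
  have h2 : 1 < Fintype.card F := Fintype.one_lt_card
  have h3 : Fintype.card F = 2 ∨ Fintype.card F = 3 := by omega
  rcases h3 with h | h
  · rw [h] at h1
    have h4 : x = 1 := by simpa using h1
    rw [h4]; simp
  · rw [h] at h1
    simpa using h1

theorem pls_diag (M : Matrix (Fin 2 ⊕ Fin 2) (Fin 2 ⊕ Fin 2) F)
    (h12 : ∀ i j, M (Sum.inl i) (Sum.inr j) = 0) (h21 : ∀ i j, M (Sum.inr i) (Sum.inl j) = 0) :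
    M.det = (M (Sum.inl 0) (Sum.inl 0) * M (Sum.inl 1) (Sum.inl 1) -
        M (Sum.inl 0) (Sum.inl 1) * M (Sum.inl 1) (Sum.inl 0)) *
      (M (Sum.inr 0) (Sum.inr 0) * M (Sum.inr 1) (Sum.inr 1) -
        M (Sum.inr 0) (Sum.inr 1) * M (Sum.inr 1) (Sum.inr 0)) := by
  have hM : M = Matrix.fromBlocks M.toBlocks₁₁ 0 0 M.toBlocks₂₂ := by
    ext i j
    rcases i with i | i <;> rcases j with j | j <;>
      simp [Matrix.toBlocks₁₁, Matrix.toBlocks₂₂, h12, h21]
  conv_lhs => rw [hM]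
  rw [Matrix.det_fromBlocks_zero₂₁, Matrix.det_fin_two, Matrix.det_fin_two]
  simp [Matrix.toBlocks₁₁, Matrix.toBlocks₂₂]

theorem pls_anti (M : Matrix (Fin 2 ⊕ Fin 2) (Fin 2 ⊕ Fin 2) F)
    (h11 : ∀ i j, M (Sum.inl i) (Sum.inl j) = 0) (h22 : ∀ i j, M (Sum.inr i) (Sum.inr j) = 0) :
    M.det = (M (Sum.inl 0) (Sum.inr 0) * M (Sum.inl 1) (Sum.inr 1) -
        M (Sum.inl 0) (Sum.inr 1) * M (Sum.inl 1) (Sum.inr 0)) *
      (M (Sum.inr 0) (Sum.inl 0) * M (Sum.inr 1) (Sum.inl 1) -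
        M (Sum.inr 0) (Sum.inl 1) * M (Sum.inr 1) (Sum.inl 0)) := by
  have h := Matrix.det_permute' (Equiv.sumComm (Fin 2) (Fin 2)) M
  have hs : Equiv.Perm.sign (Equiv.sumComm (Fin 2) (Fin 2)) = 1 := by decide
  rw [hs] at h
  have h' : (M.submatrix id (Equiv.sumComm (Fin 2) (Fin 2))).det = M.det := by simpa using h
  rw [← h', pls_diag _ ?_ ?_]
  · simp
  · intro i j; simp [h11]
  · intro i j; simp [h22]

theorem pls_mul_diag (M : Matrix (Fin 2 ⊕ Fin 2) (Fin 2 ⊕ Fin 2) F)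
    (h12 : ∀ i j, M (Sum.inl i) (Sum.inr j) = 0) (h21 : ∀ i j, M (Sum.inr i) (Sum.inl j) = 0)
    (x y : Fin 2 ⊕ Fin 2 → F) :
    plsW (M *ᵥ x) (M *ᵥ y) = (M (Sum.inl 0) (Sum.inl 0) * M (Sum.inl 1) (Sum.inl 1) -
        M (Sum.inl 0) (Sum.inl 1) * M (Sum.inl 1) (Sum.inl 0)) *
          (x (Sum.inl 0) * y (Sum.inl 1) - x (Sum.inl 1) * y (Sum.inl 0)) +
      (M (Sum.inr 0) (Sum.inr 0) * M (Sum.inr 1) (Sum.inr 1) -
        M (Sum.inr 0) (Sum.inr 1) * M (Sum.inr 1) (Sum.inr 0)) *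
          (x (Sum.inr 0) * y (Sum.inr 1) - x (Sum.inr 1) * y (Sum.inr 0)) := by
  simp only [plsW, Matrix.mulVec, dotProduct, Fintype.sum_sum_type, Fin.sum_univ_two, h12, h21]
  ring

theorem pls_mul_anti (M : Matrix (Fin 2 ⊕ Fin 2) (Fin 2 ⊕ Fin 2) F)
    (h11 : ∀ i j, M (Sum.inl i) (Sum.inl j) = 0) (h22 : ∀ i j, M (Sum.inr i) (Sum.inr j) = 0)
    (x y : Fin 2 ⊕ Fin 2 → F) :
    plsW (M *ᵥ x) (M *ᵥ y) = (M (Sum.inl 0) (Sum.inr 0) * M (Sum.inl 1) (Sum.inr 1) -
        M (Sum.inl 0) (Sum.inr 1) * M (Sum.inl 1) (Sum.inr 0)) *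
          (x (Sum.inr 0) * y (Sum.inr 1) - x (Sum.inr 1) * y (Sum.inr 0)) +
      (M (Sum.inr 0) (Sum.inl 0) * M (Sum.inr 1) (Sum.inl 1) -
        M (Sum.inr 0) (Sum.inl 1) * M (Sum.inr 1) (Sum.inl 0)) *
          (x (Sum.inl 0) * y (Sum.inl 1) - x (Sum.inl 1) * y (Sum.inl 0)) := by
  simp only [plsW, Matrix.mulVec, dotProduct, Fintype.sum_sum_type, Fin.sum_univ_two, h11, h22]
  ring

/-- two field elements with product one coincide when all non-zero squares are one. -/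
theorem pls_eq [Fintype F] (hq : Fintype.card F ≤ 3) (a d : F) (h : a * d = 1) : d = a := by
  have ha : a ≠ 0 := by
    rintro rfl
    simp at h
  have h2 := pls_sq hq a ha
  calc d = (a ^ 2) * d := by rw [h2, one_mul]
    _ = a * (a * d) := by ring
    _ = a := by rw [h, mul_one]

theorem planes_small [Fintype F] (hq : Fintype.card F ≤ 3) (D : Fin 2 → Submodule F (Fin 4 → F))
    (hD : IsMDecomposition 2 D) :
    ∃ f : (Fin 4 → F) → (Fin 4 → F) → F, IsSymplecticForm f ∧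
      decompositionStabilizer D ⊓ specialLinear (Fin 4) F ≤ similarityGroup f := by
  classical
  have hc : IsCompl (D 0) (D 1) := by
    constructor
    · exact hD.indep.pairwiseDisjoint (by decide)
    · rw [codisjoint_iff, eq_top_iff, ← hD.iSup_eq_top]
      refine iSup_le ?_
      rw [Fin.forall_fin_two]
      exact ⟨le_sup_left, le_sup_right⟩
  let b0 : Module.Basis (Fin 2) F (D 0) := Module.finBasisOfFinrankEq F (D 0) (hD.finrank_eq 0)
  let b1 : Module.Basis (Fin 2) F (D 1) := Module.finBasisOfFinrankEq F (D 1) (hD.finrank_eq 1)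
  let b : Module.Basis (Fin 2 ⊕ Fin 2) F (Fin 4 → F) :=
    (b0.prod b1).map (Submodule.prodEquivOfIsCompl _ _ hc)
  have hbl : ∀ j, b (Sum.inl j) ∈ D 0 := by
    intro j
    simp [b]
  have hbr : ∀ j, b (Sum.inr j) ∈ D 1 := by
    intro j
    simp [b]
  have hr0 : ∀ v ∈ D 0, ∀ i, b.repr v (Sum.inr i) = 0 := by
    intro v hv i
    have h1 : (Submodule.prodEquivOfIsCompl _ _ hc).symm v = ((⟨v, hv⟩ : D 0), (0 : D 1)) :=
      Submodule.prodEquivOfIsCompl_symm_apply_left _ _ hc ⟨v, hv⟩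
    simp [b, h1]
  have hr1 : ∀ v ∈ D 1, ∀ i, b.repr v (Sum.inl i) = 0 := by
    intro v hv i
    have h1 : (Submodule.prodEquivOfIsCompl _ _ hc).symm v = ((0 : D 0), (⟨v, hv⟩ : D 1)) :=
      Submodule.prodEquivOfIsCompl_symm_apply_right _ _ hc ⟨v, hv⟩
    simp [b, h1]
  refine ⟨fun u v => plsW (fun i => b.repr u i) (fun i => b.repr v i), ?_, ?_⟩
  · have hskew : ∀ v w : Fin 4 → F, plsW (fun i => b.repr v i) (fun i => b.repr w i) =
        - plsW (fun i => b.repr w i) (fun i => b.repr v i) := by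
      intro v w
      simp only [plsW]
      ring
    have hnd : ∀ v : Fin 4 → F, v ≠ 0 →
        ∃ x : Fin 4 → F, plsW (fun i => b.repr x i) (fun i => b.repr v i) ≠ 0 := by
      intro v hv
      by_contra hcon
      push Not at hcon
      apply hv
      have e0 := hcon (b (Sum.inl 0))
      have e1 := hcon (b (Sum.inl 1))
      have e2 := hcon (b (Sum.inr 0))
      have e3 := hcon (b (Sum.inr 1))
      simp [plsW, Module.Basis.repr_self] at e0 e1 e2 e3
      have hz : b.repr v = 0 := by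
        ext i
        rcases i with i | i <;> fin_cases i <;> simp [e0, e1, e2, e3]
      exact b.repr.map_eq_zero_iff.1 hz
    refine ⟨⟨?_, ?_, ?_, ?_⟩, hskew, ?_, ?_⟩
    · intro x y v
      simp only [plsW, map_add, Finsupp.add_apply]
      ring
    · intro c x v
      simp only [plsW, map_smul, Finsupp.smul_apply, smul_eq_mul]
      ring
    · intro v x y
      simp only [plsW, map_add, Finsupp.add_apply]
      ring
    · intro c v x
      simp only [plsW, map_smul, Finsupp.smul_apply, smul_eq_mul]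
      ring
    · intro v
      simp only [plsW]
      ring
    · intro v hv
      obtain ⟨x, hx⟩ := hnd v hv
      refine ⟨⟨x, hx⟩, ⟨x, ?_⟩⟩
      show plsW (fun i => b.repr v i) (fun i => b.repr x i) ≠ 0
      rw [hskew]
      exact neg_ne_zero.2 hx
  · rintro g ⟨⟨σ, hσ⟩, hdet⟩
    set M : Matrix (Fin 2 ⊕ Fin 2) (Fin 2 ⊕ Fin 2) F :=
      LinearMap.toMatrix b b (Matrix.toLin' (g : Matrix (Fin 4) (Fin 4) F)) with hM
    have hMdet : M.det = 1 := by
      rw [hM, LinearMap.det_toMatrix, LinearMap.det_toLin']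
      have h1 : Matrix.GeneralLinearGroup.det g = 1 := hdet
      have h2 := congrArg Units.val h1
      simpa using h2
    have hrep : ∀ u : Fin 4 → F, (fun i => b.repr ((g : Matrix (Fin 4) (Fin 4) F) *ᵥ u) i) =
        M *ᵥ (fun i => b.repr u i) := by
      intro u
      have := LinearMap.toMatrix_mulVec_repr b b (Matrix.toLin' (g : Matrix (Fin 4) (Fin 4) F)) u
      rw [Matrix.toLin'_apply] at this
      exact this.symm
    have hMap : ∀ i j, M i j = b.repr ((g : Matrix (Fin 4) (Fin 4) F) *ᵥ b j) i := by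
      intro i j
      rw [hM, LinearMap.toMatrix_apply, Matrix.toLin'_apply]
    have hmem : ∀ i v, v ∈ D i → (g : Matrix (Fin 4) (Fin 4) F) *ᵥ v ∈ D (σ i) := by
      intro i v hv
      rw [← hσ i]
      exact ⟨v, hv, by rw [Matrix.toLin'_apply]⟩
    have hcase : (σ 0 = 0 ∧ σ 1 = 1) ∨ (σ 0 = 1 ∧ σ 1 = 0) := by
      have hinj : σ 0 ≠ σ 1 := fun h => by simpa using σ.injective h
      generalize σ 0 = a at *
      generalize σ 1 = c at *
      fin_cases a <;> fin_cases c <;> simp_all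
    rcases hcase with ⟨h0, h1⟩ | ⟨h0, h1⟩
    · have h12 : ∀ i j, M (Sum.inl i) (Sum.inr j) = 0 := by
        intro i j
        rw [hMap]
        apply hr1
        have := hmem 1 _ (hbr j)
        rwa [h1] at this
      have h21 : ∀ i j, M (Sum.inr i) (Sum.inl j) = 0 := by
        intro i j
        rw [hMap]
        apply hr0
        have := hmem 0 _ (hbl j)
        rwa [h0] at this
      have hd := pls_diag M h12 h21
      rw [hMdet] at hd
      have had := pls_eq hq _ _ hd.symm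
      have ha : (M (Sum.inl 0) (Sum.inl 0) * M (Sum.inl 1) (Sum.inl 1) -
        M (Sum.inl 0) (Sum.inl 1) * M (Sum.inl 1) (Sum.inl 0)) ≠ 0 := by
        intro h
        rw [h, zero_mul] at hd
        exact one_ne_zero hd
      refine ⟨Units.mk0 _ ha, fun u v => ?_⟩
      show plsW (fun i => b.repr ((g : Matrix (Fin 4) (Fin 4) F) *ᵥ u) i)
        (fun i => b.repr ((g : Matrix (Fin 4) (Fin 4) F) *ᵥ v) i) = _ * plsW _ _
      rw [hrep, hrep, pls_mul_diag M h12 h21, had]
      simp only [plsW, Units.val_mk0]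
      ring
    · have h11 : ∀ i j, M (Sum.inl i) (Sum.inl j) = 0 := by
        intro i j
        rw [hMap]
        apply hr1
        have := hmem 0 _ (hbl j)
        rwa [h0] at this
      have h22 : ∀ i j, M (Sum.inr i) (Sum.inr j) = 0 := by
        intro i j
        rw [hMap]
        apply hr0
        have := hmem 1 _ (hbr j)
        rwa [h1] at this
      have hd := pls_anti M h11 h22
      rw [hMdet] at hd
      have had := pls_eq hq _ _ hd.symm
      have ha : (M (Sum.inl 0) (Sum.inr 0) * M (Sum.inl 1) (Sum.inr 1) -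
        M (Sum.inl 0) (Sum.inr 1) * M (Sum.inl 1) (Sum.inr 0)) ≠ 0 := by
        intro h
        rw [h, zero_mul] at hd
        exact one_ne_zero hd
      refine ⟨Units.mk0 _ ha, fun u v => ?_⟩
      show plsW (fun i => b.repr ((g : Matrix (Fin 4) (Fin 4) F) *ᵥ u) i)
        (fun i => b.repr ((g : Matrix (Fin 4) (Fin 4) F) *ᵥ v) i) = _ * plsW _ _
      rw [hrep, hrep, pls_mul_anti M h11 h22, had]
      simp only [plsW, Units.val_mk0]
      ring

end Cfsg.Agent.Lib.Helper8.Sl4
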