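import Cfsg.Agent.Lib.Helper8.Sl4.Defs

set_option autoImplicit false

namespace Cfsg.Agent.Lib.Helper8.Sl4

open Cfsg Cfsg.Geo Cfsg.Agent.Lib.Helper77.Asch
open scoped MatrixGroups Matrix

variable {n : ℕ} {F : Type*} [Field F]

set_option maxRecDepth 100000 in
/-- the Klein four group inside `Perm (Fin 4)` is closed under products. -/
theorem q5a_klein_mul : ∀ π π' : Equiv.Perm (Fin 4), (π = 1 ∨ (π * π = 1 ∧ ∀ j, π j ≠ j)) →
    (π' = 1 ∨ (π' * π' = 1 ∧ ∀ j, π' j ≠ j)) →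
    (π * π' = 1 ∨ ((π * π') * (π * π') = 1 ∧ ∀ j, (π * π') j ≠ j)) := by
  decide

/-- in the Klein four group every element is its own inverse. -/
theorem q5a_klein_inv (π : Equiv.Perm (Fin 4)) (h : π = 1 ∨ (π * π = 1 ∧ ∀ j, π j ≠ j)) :
    π⁻¹ = π := by
  rcases h with rfl | ⟨h, -⟩
  · simp
  · exact inv_eq_of_mul_eq_one_left h

theorem q5a_one (b : Module.Basis (Fin 4) F (Fin 4 → F)) : IsPauli b 1 := by
  refine ⟨1, fun _ => 1, Or.inl rfl, fun j => ?_, fun _ _ => rfl, fun _ => by simp, by simp⟩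
  simp

theorem q5a_mul (b : Module.Basis (Fin 4) F (Fin 4 → F)) (g g' : GL (Fin 4) F)
    (hg : IsPauli b g) (hg' : IsPauli b g') : IsPauli b (g * g') := by
  obtain ⟨π, c, hπ, hb, hsq, h4, hprod⟩ := hg
  obtain ⟨π', c', hπ', hb', hsq', h4', hprod'⟩ := hg'
  refine ⟨π * π', fun j => c' j * c (π' j), q5a_klein_mul π π' hπ hπ', fun j => ?_, fun j k => ?_,
    fun j => ?_, ?_⟩
  · rw [Units.val_mul, ← Matrix.mulVec_mulVec, hb' j, Matrix.mulVec_smul, hb (π' j), smul_smul]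
    rfl
  · show (c' j * c (π' j)) ^ 2 = (c' k * c (π' k)) ^ 2
    rw [mul_pow, mul_pow, hsq' j k, hsq (π' j) (π' k)]
  · show (c' j * c (π' j)) ^ 4 = 1
    rw [mul_pow, h4', h4, one_mul]
  · rw [Finset.prod_mul_distrib, hprod', one_mul, Equiv.prod_comp π' c, hprod]

theorem q5a_inv (b : Module.Basis (Fin 4) F (Fin 4 → F)) (g : GL (Fin 4) F)
    (hg : IsPauli b g) : IsPauli b g⁻¹ := by
  obtain ⟨π, c, hπ, hb, hsq, h4, hprod⟩ := hg
  have hinv : π⁻¹ = π := q5a_klein_inv π hπ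
  have hc0 : ∀ j, c j ≠ 0 := by
    intro j h0
    have := h4 j
    rw [h0] at this
    simp at this
  have hππ : ∀ j, π (π j) = j := by
    intro j
    have : π⁻¹ (π j) = j := by simp
    rwa [hinv] at this
  refine ⟨π, fun j => (c (π j))⁻¹, hπ, fun j => ?_, fun j k => ?_, fun j => ?_, ?_⟩
  · have h1 := hb (π j)
    rw [hππ j] at h1
    have h2 : b j = (c (π j))⁻¹ • ((g : Matrix (Fin 4) (Fin 4) F) *ᵥ b (π j)) := by
      rw [h1, smul_smul, inv_mul_cancel₀ (hc0 _), one_smul]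
    conv_lhs => rw [h2]
    rw [Matrix.mulVec_smul, Matrix.mulVec_mulVec, ← Units.val_mul, inv_mul_cancel, Units.val_one,
      Matrix.one_mulVec]
  · show ((c (π j))⁻¹) ^ 2 = ((c (π k))⁻¹) ^ 2
    rw [inv_pow, inv_pow, hsq (π j) (π k)]
  · show ((c (π j))⁻¹) ^ 4 = 1
    rw [inv_pow, h4, inv_one]
  · rw [Finset.prod_inv_distrib, Equiv.prod_comp π c, hprod, inv_one]

/-- Q5A. -/
theorem exists_pauli (b : Module.Basis (Fin 4) F (Fin 4 → F)) :
    ∃ R : Subgroup (GL (Fin 4) F), ∀ g : GL (Fin 4) F, g ∈ R ↔ IsPauli b g :=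
  ⟨{ carrier := {g | IsPauli b g}
     mul_mem' := fun {x y} hx hy => q5a_mul b x y hx hy
     one_mem' := q5a_one b
     inv_mem' := fun {x} hx => q5a_inv b x hx }, fun _ => Iff.rfl⟩

/-- Q5A (easy). -/
theorem pauli_sat (b : Module.Basis (Fin 4) F (Fin 4 → F)) (z : GL (Fin 4) F) (hz : z ∈ scalars (Fin 4) F)
    (h4 : z ^ 4 = 1) : IsPauli b z := by
  obtain ⟨c, hc⟩ := (mem_scalars_iff z).1 hz
  have hc4 : (c : F) ^ 4 = 1 := by
    have h := congrArg (fun u : GL (Fin 4) F => (u : Matrix (Fin 4) (Fin 4) F) 0 0) h4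
    simp only [Units.val_pow_eq_pow_val, hc, Units.val_one] at h
    rw [smul_pow, one_pow] at h
    simpa using h
  refine ⟨1, fun _ => (c : F), Or.inl rfl, fun j => ?_, fun _ _ => rfl, fun _ => hc4, ?_⟩
  · rw [hc, Matrix.smul_mulVec, Matrix.one_mulVec]
    rfl
  · rw [Finset.prod_const]
    simpa using hc4

end Cfsg.Agent.Lib.Helper8.Sl4
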