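import Cfsg.Agent.Lib.Helper8.Sl4.Q5C

set_option autoImplicit false

namespace Cfsg.Agent.Lib.Helper8.Sl4

open Cfsg Cfsg.Geo Cfsg.Agent.Lib.Helper77.Asch
open scoped MatrixGroups Matrix

variable {n : ℕ} {F : Type*} [Field F]

/-- determinant of a monomial element. -/
theorem q5b_det (b : Module.Basis (Fin 4) F (Fin 4 → F)) (m : GL (Fin 4) F) (ρ : Equiv.Perm (Fin 4))
    (d : Fin 4 → F) (hm : ∀ j, (m : Matrix (Fin 4) (Fin 4) F) *ᵥ b j = d j • b (ρ j)) :
    (m : Matrix (Fin 4) (Fin 4) F).det = Equiv.Perm.sign ρ • ∏ j, d j := by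
  classical
  rw [← LinearMap.det_toLin', ← LinearMap.det_toMatrix b, Matrix.det_apply]
  rw [Finset.sum_eq_single ρ]
  · congr 1
    refine Finset.prod_congr rfl fun i _ => ?_
    rw [LinearMap.toMatrix_apply, Matrix.toLin'_apply, hm i, map_smul, Module.Basis.repr_self,
      Finsupp.smul_apply, Finsupp.single_eq_same, smul_eq_mul, mul_one]
  · intro σ _ hσ
    obtain ⟨i, hi⟩ : ∃ i, σ i ≠ ρ i := by
      by_contra hcon
      push Not at hcon
      exact hσ (Equiv.ext hcon)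
    rw [Finset.prod_eq_zero (Finset.mem_univ i), smul_zero]
    rw [LinearMap.toMatrix_apply, Matrix.toLin'_apply, hm i, map_smul, Module.Basis.repr_self,
      Finsupp.smul_apply, Finsupp.single_eq_of_ne hi, smul_zero]
  · intro h
    exact absurd (Finset.mem_univ ρ) h

/-- Q5B. -/
theorem monomial_normalizes_pauli [Fintype F] (hq : Fintype.card F = 5) (b : Module.Basis (Fin 4) F (Fin 4 → F))
    (m : GL (Fin 4) F) (hdet : m ∈ specialLinear (Fin 4) F) (ρ : Equiv.Perm (Fin 4)) (d : Fin 4 → F)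
    (hm : ∀ j, (m : Matrix (Fin 4) (Fin 4) F) *ᵥ b j = d j • b (ρ j)) (g : GL (Fin 4) F) (hg : IsPauli b g) :
    IsPauli b (m * g * m⁻¹) := by
  classical
  obtain ⟨π, c, hπ, hc, hsq, h4, hprod⟩ := hg
  have hinv : ∀ v : Fin 4 → F, ((m⁻¹ : GL (Fin 4) F) : Matrix (Fin 4) (Fin 4) F) *ᵥ
      ((m : Matrix (Fin 4) (Fin 4) F) *ᵥ v) = v := by
    intro v
    rw [Matrix.mulVec_mulVec, ← Units.val_mul, inv_mul_cancel, Units.val_one, Matrix.one_mulVec]
  have hd0 : ∀ j, d j ≠ 0 := by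
    intro j h0
    have h1 := hinv (b j)
    rw [hm j, h0, zero_smul, Matrix.mulVec_zero] at h1
    exact b.ne_zero j h1.symm
  have hF4 : ∀ x : F, x ≠ 0 → x ^ 4 = 1 := by
    intro x hx
    have := FiniteField.pow_card_sub_one_eq_one x hx
    rwa [hq] at this
  have hd4 : ∀ j, d j ^ 4 = 1 := fun j => hF4 _ (hd0 j)
  have hminv : ∀ j, ((m⁻¹ : GL (Fin 4) F) : Matrix (Fin 4) (Fin 4) F) *ᵥ b (ρ j) = (d j)⁻¹ • b j := by
    intro j
    have h1 := hinv (b j)
    rw [hm j, Matrix.mulVec_smul] at h1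
    rw [← h1, smul_smul, inv_mul_cancel₀ (hd0 j), one_smul]
  -- the determinant condition
  have hD : (∏ j, d j) ^ 2 = 1 := by
    have h1 : (m : Matrix (Fin 4) (Fin 4) F).det = 1 := by
      have h2 : Matrix.GeneralLinearGroup.det m = 1 := hdet
      have h3 := congrArg Units.val h2
      simpa using h3
    rw [q5b_det b m ρ d hm] at h1
    rcases Int.units_eq_one_or (Equiv.Perm.sign ρ) with h | h
    · rw [h, one_smul] at h1
      rw [h1, one_pow]
    · rw [h] at h1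
      have h5 : -(∏ j, d j) = 1 := by simpa using h1
      have : (∏ j, d j) ^ 2 = (-(∏ j, d j)) ^ 2 := by ring
      rw [this, h5, one_pow]
  have hs := q5c_const π hπ (fun j => d j ^ 2)
    (fun j k => by
      change (d j ^ 2) ^ 2 = (d k ^ 2) ^ 2
      rw [← pow_mul, ← pow_mul, hd4, hd4])
    (fun j => by
      change (d j ^ 2) ^ 4 = 1
      rw [← pow_mul, mul_comm, pow_mul, hd4, one_pow])
    (by rw [Finset.prod_pow, hD])
  have hinv2 : ∀ j, ((d j)⁻¹) ^ 2 = d j ^ 2 := by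
    intro j
    rw [inv_pow]
    apply inv_eq_of_mul_eq_one_left
    rw [← pow_add]
    exact hd4 j
  refine ⟨ρ * π * ρ⁻¹, fun i => c (ρ⁻¹ i) * d (π (ρ⁻¹ i)) * (d (ρ⁻¹ i))⁻¹, ?_, ?_, ?_, ?_, ?_⟩
  · rcases hπ with rfl | ⟨h1, h2⟩
    · left
      simp
    · right
      constructor
      · have : ρ * π * ρ⁻¹ * (ρ * π * ρ⁻¹) = ρ * (π * π) * ρ⁻¹ := by group
        rw [this, h1]
        simp
      · intro j hj
        apply h2 (ρ⁻¹ j)
        have h3 : ρ (π (ρ⁻¹ j)) = j := hj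
        apply ρ.injective
        rw [h3]
        simp
  · intro i
    obtain ⟨j, rfl⟩ := ρ.surjective i
    have e1 : ρ⁻¹ (ρ j) = j := by simp
    beta_reduce
    rw [e1, q5c_mul_apply, q5c_mul_apply, hminv j, Matrix.mulVec_smul, hc j, Matrix.mulVec_smul,
      Matrix.mulVec_smul, hm (π j), smul_smul, smul_smul]
    have e2 : (ρ * π * ρ⁻¹) (ρ j) = ρ (π j) := by simp
    rw [e2]
    congr 1
    ring
  · intro i k
    have key : ∀ j, (c j * d (π j) * (d j)⁻¹) ^ 2 = c 0 ^ 2 * (d 0 ^ 2 * d (π 0) ^ 2) := by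
      intro j
      rw [mul_pow, mul_pow, hinv2, hsq j 0, ← hs j]
      ring
    change (c (ρ⁻¹ i) * d (π (ρ⁻¹ i)) * (d (ρ⁻¹ i))⁻¹) ^ 2 = (c (ρ⁻¹ k) * d (π (ρ⁻¹ k)) * (d (ρ⁻¹ k))⁻¹) ^ 2
    rw [key, key]
  · intro i
    change (c (ρ⁻¹ i) * d (π (ρ⁻¹ i)) * (d (ρ⁻¹ i))⁻¹) ^ 4 = 1
    rw [mul_pow, mul_pow, h4, hd4, inv_pow, hd4]
    simp
  · rw [Equiv.prod_comp ρ⁻¹ (fun j => c j * d (π j) * (d j)⁻¹), Finset.prod_mul_distrib,
      Finset.prod_mul_distrib, hprod, Equiv.prod_comp π d, Finset.prod_inv_distrib, one_mul]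
    apply mul_inv_cancel₀
    intro h0
    rw [h0] at hD
    norm_num at hD

end Cfsg.Agent.Lib.Helper8.Sl4
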