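import Cfsg.Agent.Lib.Helper8.Sl4.Defs

set_option autoImplicit false

namespace Cfsg.Agent.Lib.Helper8.Sl4

open Cfsg Cfsg.Geo Cfsg.Agent.Lib.Helper77.Asch
open scoped MatrixGroups Matrix

variable {n : ℕ} {F : Type*} [Field F]

theorem q5c_aux : ∀ a b c d : Fin 4, (∀ j, ![a, b, c, d] (![a, b, c, d] j) = j) →
    (∀ j, ![a, b, c, d] j ≠ j) →
    (a = 1 ∧ b = 0 ∧ c = 3 ∧ d = 2) ∨ (a = 2 ∧ b = 3 ∧ c = 0 ∧ d = 1) ∨
      (a = 3 ∧ b = 2 ∧ c = 1 ∧ d = 0) := by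
  decide

theorem q5c_fun_cases (f : Fin 4 → Fin 4) (h1 : ∀ j, f (f j) = j) (h2 : ∀ j, f j ≠ j) :
    f = ![1, 0, 3, 2] ∨ f = ![2, 3, 0, 1] ∨ f = ![3, 2, 1, 0] := by
  have hf : f = ![f 0, f 1, f 2, f 3] := by
    funext j
    fin_cases j <;> rfl
  have h := q5c_aux (f 0) (f 1) (f 2) (f 3) (by rw [← hf]; exact h1) (by rw [← hf]; exact h2)
  rcases h with ⟨a, b, c, d⟩ | ⟨a, b, c, d⟩ | ⟨a, b, c, d⟩
  · left; rw [hf, a, b, c, d]
  · right; left; rw [hf, a, b, c, d]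
  · right; right; rw [hf, a, b, c, d]

/-- the four possible permutations. -/
theorem q5c_cases (π : Equiv.Perm (Fin 4)) (h : π = 1 ∨ (π * π = 1 ∧ ∀ j, π j ≠ j)) :
    (π : Fin 4 → Fin 4) = ![0, 1, 2, 3] ∨ (π : Fin 4 → Fin 4) = ![1, 0, 3, 2] ∨
      (π : Fin 4 → Fin 4) = ![2, 3, 0, 1] ∨ (π : Fin 4 → Fin 4) = ![3, 2, 1, 0] := by
  rcases h with rfl | ⟨h1, h2⟩
  · left
    funext j
    fin_cases j <;> rfl
  · right
    apply q5c_fun_cases _ _ h2
    intro j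
    rw [← Equiv.Perm.mul_apply, h1, Equiv.Perm.one_apply]

theorem q5c_comm (π π' : Equiv.Perm (Fin 4)) (h : π = 1 ∨ (π * π = 1 ∧ ∀ j, π j ≠ j))
    (h' : π' = 1 ∨ (π' * π' = 1 ∧ ∀ j, π' j ≠ j)) (j : Fin 4) : π (π' j) = π' (π j) := by
  rcases q5c_cases π h with e | e | e | e <;> rcases q5c_cases π' h' with e' | e' | e' | e' <;>
    rw [e, e'] <;> fin_cases j <;> rfl

theorem q5c_invol (π : Equiv.Perm (Fin 4)) (h : π = 1 ∨ (π * π = 1 ∧ ∀ j, π j ≠ j)) (j : Fin 4) :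
    π (π j) = j := by
  rcases h with rfl | ⟨h1, _⟩
  · rfl
  · rw [← Equiv.Perm.mul_apply, h1, Equiv.Perm.one_apply]

/-- Lemma A: `c j * c (σ j)` does not depend on `j`. -/
theorem q5c_const (σ : Equiv.Perm (Fin 4)) (h : σ = 1 ∨ (σ * σ = 1 ∧ ∀ j, σ j ≠ j)) (c : Fin 4 → F)
    (hsq : ∀ j k, c j ^ 2 = c k ^ 2) (h4 : ∀ j, c j ^ 4 = 1) (hprod : ∏ j, c j = 1) (j : Fin 4) :
    c j * c (σ j) = c 0 * c (σ 0) := by
  rw [Fin.prod_univ_four] at hprod
  have key : ∀ x y z w : F, x * y * z * w = 1 → z ^ 2 = w ^ 2 → z ^ 4 = 1 → z * w = x * y := by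
    intro x y z w P S Q
    have S' : (z * w) ^ 2 = 1 := by
      have : (z * w) ^ 2 = z ^ 2 * w ^ 2 := by ring
      rw [this, ← S, ← Q]; ring
    linear_combination (-(z * w)) * P + (x * y) * S'
  rcases q5c_cases σ h with e | e | e | e <;> rw [e]
  · fin_cases j
    · rfl
    · have := hsq 1 0
      simpa [pow_two] using this
    · have := hsq 2 0
      simpa [pow_two] using this
    · have := hsq 3 0
      simpa [pow_two] using this
  · have k1 := key (c 0) (c 1) (c 2) (c 3) hprod (hsq 2 3) (h4 2)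
    fin_cases j
    · rfl
    · exact mul_comm _ _
    · exact k1
    · exact (mul_comm _ _).trans k1
  · have k1 := key (c 0) (c 2) (c 1) (c 3) (by rw [← hprod]; ring) (hsq 1 3) (h4 1)
    fin_cases j
    · rfl
    · exact k1
    · exact mul_comm _ _
    · exact (mul_comm _ _).trans k1
  · have k1 := key (c 0) (c 3) (c 1) (c 2) (by rw [← hprod]; ring) (hsq 1 2) (h4 1)
    fin_cases j
    · rfl
    · exact k1
    · exact (mul_comm _ _).trans k1
    · exact mul_comm _ _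

theorem q5c_ext (b : Module.Basis (Fin 4) F (Fin 4 → F)) {g h : GL (Fin 4) F}
    (e : ∀ j, (g : Matrix (Fin 4) (Fin 4) F) *ᵥ b j = (h : Matrix (Fin 4) (Fin 4) F) *ᵥ b j) : g = h := by
  apply Units.ext
  apply Matrix.toLin'.injective
  apply b.ext
  intro j
  rw [Matrix.toLin'_apply, Matrix.toLin'_apply]
  exact e j

theorem q5c_mul_apply (g h : GL (Fin 4) F) (v : Fin 4 → F) :
    ((g * h : GL (Fin 4) F) : Matrix (Fin 4) (Fin 4) F) *ᵥ v
      = (g : Matrix (Fin 4) (Fin 4) F) *ᵥ ((h : Matrix (Fin 4) (Fin 4) F) *ᵥ v) := by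
  rw [Units.val_mul, Matrix.mulVec_mulVec]

theorem q5c_sc_apply (a : Fˣ) (v : Fin 4 → F) :
    ((sc a : GL (Fin 4) F) : Matrix (Fin 4) (Fin 4) F) *ᵥ v = (a : F) • v := by
  rw [hb_sc_coe, Matrix.smul_mulVec, Matrix.one_mulVec]

theorem q5c_pm {x y : F} (h : x ^ 2 = y ^ 2) : x = y ∨ x = -y := by
  have : (x - y) * (x + y) = 0 := by linear_combination h
  rcases mul_eq_zero.mp this with h1 | h1
  · left; exact sub_eq_zero.mp h1
  · right; exact eq_neg_of_add_eq_zero_left h1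

/-- Q5C. -/
theorem pauli_rel (b : Module.Basis (Fin 4) F (Fin 4 → F)) (g g' : GL (Fin 4) F)
    (hg : IsPauli b g) (hg' : IsPauli b g') :
    (g ^ 2 = 1 ∨ g ^ 2 = sc (-1)) ∧ (g * g' = g' * g ∨ g * g' = sc (-1) * (g' * g)) := by
  obtain ⟨π, c, hπ, hc, hsq, h4, hprod⟩ := hg
  obtain ⟨π', c', hπ', hc', hsq', h4', hprod'⟩ := hg'
  constructor
  · have h1 : ∀ j, ((g ^ 2 : GL (Fin 4) F) : Matrix (Fin 4) (Fin 4) F) *ᵥ b j = (c 0 * c (π 0)) • b j := by
      intro j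
      rw [pow_two, q5c_mul_apply, hc j, Matrix.mulVec_smul, hc (π j), smul_smul, q5c_invol π hπ,
        q5c_const π hπ c hsq h4 hprod j]
    have h2 : (c 0 * c (π 0)) ^ 2 = 1 ^ 2 := by
      have : (c 0 * c (π 0)) ^ 2 = c 0 ^ 2 * c (π 0) ^ 2 := by ring
      rw [this, hsq (π 0) 0, one_pow, ← h4 0]; ring
    rcases q5c_pm h2 with h3 | h3
    · left
      apply q5c_ext b
      intro j
      rw [h1 j, h3, one_smul, Units.val_one, Matrix.one_mulVec]
    · right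
      apply q5c_ext b
      intro j
      rw [h1 j, h3, q5c_sc_apply]
      simp
  · have hL : ∀ j, ((g * g' : GL (Fin 4) F) : Matrix (Fin 4) (Fin 4) F) *ᵥ b j
        = (c' j * c (π' j)) • b (π (π' j)) := by
      intro j
      rw [q5c_mul_apply, hc' j, Matrix.mulVec_smul, hc (π' j), smul_smul]
    have hR : ∀ j, ((g' * g : GL (Fin 4) F) : Matrix (Fin 4) (Fin 4) F) *ᵥ b j
        = (c j * c' (π j)) • b (π (π' j)) := by
      intro j
      rw [q5c_mul_apply, hc j, Matrix.mulVec_smul, hc' (π j), smul_smul, q5c_comm π π' hπ hπ']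
    -- constants
    set α := c 0 * c (π' 0) with hα
    set β := c' 0 * c' (π 0) with hβ
    have hA : ∀ j, c j * c (π' j) = α := q5c_const π' hπ' c hsq h4 hprod
    have hB : ∀ j, c' j * c' (π j) = β := q5c_const π hπ c' hsq' h4' hprod'
    have hα2 : α ^ 2 = 1 := by
      have : α ^ 2 = c 0 ^ 2 * c (π' 0) ^ 2 := by rw [hα]; ring
      rw [this, hsq (π' 0) 0, ← h4 0]; ring
    have hβ2 : β ^ 2 = 1 := by
      have : β ^ 2 = c' 0 ^ 2 * c' (π 0) ^ 2 := by rw [hβ]; ring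
      rw [this, hsq' (π 0) 0, ← h4' 0]; ring
    have hne : ∀ j, c j * c' j ≠ 0 := by
      intro j h0
      have h5 : (c j * c' j) ^ 4 = 1 := by rw [mul_pow, h4, h4', one_mul]
      rw [h0] at h5
      norm_num at h5
    have hLu : ∀ j, (c' j * c (π' j)) * (c j * c' j) = c' 0 ^ 2 * α := by
      intro j
      rw [← hA j, ← hsq' j 0]; ring
    have hRu : ∀ j, (c j * c' (π j)) * (c j * c' j) = c 0 ^ 2 * β := by
      intro j
      rw [← hB j, ← hsq j 0]; ring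
    have hsqeq : (c' 0 ^ 2 * α) ^ 2 = (c 0 ^ 2 * β) ^ 2 := by
      have e1 : (c' 0 ^ 2 * α) ^ 2 = c' 0 ^ 4 * α ^ 2 := by ring
      have e2 : (c 0 ^ 2 * β) ^ 2 = c 0 ^ 4 * β ^ 2 := by ring
      rw [e1, e2, h4, h4', hα2, hβ2]
    rcases q5c_pm hsqeq with h3 | h3
    · left
      apply q5c_ext b
      intro j
      rw [hL j, hR j]
      congr 1
      apply mul_right_cancel₀ (hne j)
      rw [hLu, hRu, h3]
    · right
      apply q5c_ext b
      intro j
      rw [hL j, q5c_mul_apply, q5c_sc_apply, hR j, smul_smul]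
      congr 1
      apply mul_right_cancel₀ (hne j)
      rw [hLu, h3]
      have : ((-1 : Fˣ) : F) * (c j * c' (π j)) * (c j * c' j) = -((c j * c' (π j)) * (c j * c' j)) := by
        simp
      rw [this, hRu]

end Cfsg.Agent.Lib.Helper8.Sl4
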