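import Cfsg.Agent.Lib.Helper8.Sl4.Defs

set_option autoImplicit false

namespace Cfsg.Agent.Lib.Helper8.Sl4

open Cfsg Cfsg.Geo Cfsg.Agent.Lib.Helper77.Asch
open scoped MatrixGroups Matrix

variable {n : ℕ} {F : Type*} [Field F]

/-- an involutory monomial element of `GL` in the basis `b`. -/
theorem q5d_exists (b : Module.Basis (Fin 4) F (Fin 4 → F)) (π : Equiv.Perm (Fin 4)) (c : Fin 4 → F)
    (hπ : ∀ j, π (π j) = j) (hc : ∀ j, c j * c (π j) = 1) :
    ∃ g : GL (Fin 4) F, ∀ j, (g : Matrix (Fin 4) (Fin 4) F) *ᵥ b j = c j • b (π j) := by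
  set L : (Fin 4 → F) →ₗ[F] (Fin 4 → F) := b.constr F (fun j => c j • b (π j)) with hL
  have hLb : ∀ j, L (b j) = c j • b (π j) := fun j => by rw [hL, Module.Basis.constr_basis]
  have hLL : L ∘ₗ L = LinearMap.id := by
    apply b.ext
    intro j
    rw [LinearMap.comp_apply, hLb, map_smul, hLb, hπ, smul_smul, hc, one_smul, LinearMap.id_apply]
  have hMM : LinearMap.toMatrix' L * LinearMap.toMatrix' L = 1 := by
    rw [← LinearMap.toMatrix'_comp, hLL, LinearMap.toMatrix'_id]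
  refine ⟨⟨LinearMap.toMatrix' L, LinearMap.toMatrix' L, hMM, hMM⟩, fun j => ?_⟩
  show LinearMap.toMatrix' L *ᵥ b j = _
  rw [LinearMap.toMatrix'_mulVec, hLb]

/-- the sign pattern `(1,-1,1,-1)`. -/
def q5dE1 : Fin 4 → F := ![1, -1, 1, -1]

/-- the sign pattern `(1,1,-1,-1)`. -/
def q5dE2 : Fin 4 → F := ![1, 1, -1, -1]

theorem q5d_e1_sq (j : Fin 4) : (q5dE1 j : F) * q5dE1 j = 1 := by
  fin_cases j <;> simp [q5dE1]

theorem q5d_e2_sq (j : Fin 4) : (q5dE2 j : F) * q5dE2 j = 1 := by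
  fin_cases j <;> simp [q5dE2]

theorem q5d_e1_prod : ∏ j, (q5dE1 j : F) = 1 := by
  simp [Fin.prod_univ_four, q5dE1]

theorem q5d_e2_prod : ∏ j, (q5dE2 j : F) = 1 := by
  simp [Fin.prod_univ_four, q5dE2]

theorem q5d_sep (j k : Fin 4) (h : j ≠ k) :
    (q5dE1 k : F) = - q5dE1 j ∨ (q5dE2 k : F) = - q5dE2 j := by
  fin_cases j <;> fin_cases k <;> simp [q5dE1, q5dE2] at h ⊢

set_option maxRecDepth 100000 in
theorem q5d_trans : ∀ j k : Fin 4, ∃ π : Equiv.Perm (Fin 4),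
    (π = 1 ∨ (π * π = 1 ∧ ∀ i, π i ≠ i)) ∧ π j = k := by
  decide

theorem q5d_diag_pauli (b : Module.Basis (Fin 4) F (Fin 4 → F)) (g : GL (Fin 4) F) (e : Fin 4 → F)
    (he : ∀ j, e j * e j = 1) (hp : ∏ j, e j = 1)
    (hg : ∀ j, (g : Matrix (Fin 4) (Fin 4) F) *ᵥ b j = e j • b j) : IsPauli b g :=
  ⟨1, e, Or.inl rfl, fun j => by simpa using hg j, fun j k => by rw [sq, sq, he, he], fun j => by
    have : e j ^ 4 = (e j * e j) * (e j * e j) := by ring
    rw [this, he, one_mul], hp⟩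

theorem q5d_repr_diag (b : Module.Basis (Fin 4) F (Fin 4 → F)) (g : Matrix (Fin 4) (Fin 4) F)
    (e : Fin 4 → F) (hg : ∀ j, g *ᵥ b j = e j • b j) (v : Fin 4 → F) (k : Fin 4) :
    b.repr (g *ᵥ v) k = e k * b.repr v k := by
  have h1 : (b.coord k) ∘ₗ (Matrix.mulVecLin g) = e k • b.coord k := by
    apply b.ext
    intro j
    simp only [LinearMap.comp_apply, Matrix.mulVecLin_apply, hg, LinearMap.smul_apply,
      Module.Basis.coord_apply, map_smul, Module.Basis.repr_self, Finsupp.smul_apply,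
      Finsupp.single_apply, smul_eq_mul]
    split_ifs with h
    · rw [h]
    · simp
  have h2 := LinearMap.congr_fun h1 v
  simpa using h2

/-- Q5D. -/
theorem pauli_abs (h2 : (2 : F) ≠ 0) (b : Module.Basis (Fin 4) F (Fin 4 → F)) (R : Subgroup (GL (Fin 4) F))
    (hR : ∀ g : GL (Fin 4) F, g ∈ R ↔ IsPauli b g) : ActsAbsolutelyIrreducibly (matrixSet R) := by
  classical
  obtain ⟨D1, hD1⟩ := q5d_exists b 1 q5dE1 (fun _ => rfl) (fun j => by simpa using q5d_e1_sq j)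
  obtain ⟨D2, hD2⟩ := q5d_exists b 1 q5dE2 (fun _ => rfl) (fun j => by simpa using q5d_e2_sq j)
  have hD1' : ∀ j, (D1 : Matrix (Fin 4) (Fin 4) F) *ᵥ b j = q5dE1 j • b j :=
    fun j => by simpa using hD1 j
  have hD2' : ∀ j, (D2 : Matrix (Fin 4) (Fin 4) F) *ᵥ b j = q5dE2 j • b j :=
    fun j => by simpa using hD2 j
  have hD1R : D1 ∈ R := (hR D1).2 (q5d_diag_pauli b D1 _ q5d_e1_sq q5d_e1_prod hD1')
  have hD2R : D2 ∈ R := (hR D2).2 (q5d_diag_pauli b D2 _ q5d_e2_sq q5d_e2_prod hD2')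
  have hP : ∀ j k : Fin 4, ∃ P ∈ R, (P : Matrix (Fin 4) (Fin 4) F) *ᵥ b j = b k := by
    intro j k
    obtain ⟨π, hπ, hjk⟩ := q5d_trans j k
    have hππ : ∀ i, π (π i) = i := by
      intro i
      rcases hπ with rfl | ⟨h, -⟩
      · rfl
      · have := congrArg (fun σ : Equiv.Perm (Fin 4) => σ i) h
        simpa using this
    obtain ⟨P, hPb⟩ := q5d_exists b π (fun _ => 1) hππ (fun _ => by simp)
    refine ⟨P, (hR P).2 ⟨π, fun _ => 1, hπ, hPb, fun _ _ => rfl, fun _ => by simp, by simp⟩, ?_⟩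
    rw [hPb, one_smul, hjk]
  have h4 : (4 : F) ≠ 0 := by
    have : (4 : F) = 2 * 2 := by norm_num
    rw [this]
    exact mul_ne_zero h2 h2
  constructor
  · intro W hW
    have hinv : ∀ g ∈ R, ∀ v ∈ W, (g : Matrix (Fin 4) (Fin 4) F) *ᵥ v ∈ W := by
      intro g hg v hv
      apply hW (g : Matrix (Fin 4) (Fin 4) F) ⟨g, hg, rfl⟩
      exact ⟨v, hv, by rw [Matrix.toLin'_apply]⟩
    by_cases hbot : W = ⊥
    · exact Or.inl hbot
    right
    obtain ⟨w, hwW, hw0⟩ := (Submodule.ne_bot_iff W).1 hbot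
    have hex : ∃ j, b.repr w j ≠ 0 := by
      by_contra hcon
      push_neg at hcon
      apply hw0
      apply b.ext_elem
      intro i
      simp [hcon i]
    obtain ⟨j, hj⟩ := hex
    have hw1 : w + (q5dE1 j : F) • ((D1 : Matrix (Fin 4) (Fin 4) F) *ᵥ w) ∈ W :=
      W.add_mem hwW (W.smul_mem _ (hinv D1 hD1R w hwW))
    have hw2 : (w + (q5dE1 j : F) • ((D1 : Matrix (Fin 4) (Fin 4) F) *ᵥ w)) + (q5dE2 j : F) •
        ((D2 : Matrix (Fin 4) (Fin 4) F) *ᵥ (w + (q5dE1 j : F) • ((D1 : Matrix (Fin 4) (Fin 4) F) *ᵥ w))) ∈ W :=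
      W.add_mem hw1 (W.smul_mem _ (hinv D2 hD2R _ hw1))
    have hw2eq : (w + (q5dE1 j : F) • ((D1 : Matrix (Fin 4) (Fin 4) F) *ᵥ w)) + (q5dE2 j : F) •
        ((D2 : Matrix (Fin 4) (Fin 4) F) *ᵥ (w + (q5dE1 j : F) • ((D1 : Matrix (Fin 4) (Fin 4) F) *ᵥ w)))
        = (4 * b.repr w j) • b j := by
      apply b.ext_elem
      intro k
      simp only [map_add, map_smul, Finsupp.add_apply, Finsupp.smul_apply, smul_eq_mul,
        q5d_repr_diag b _ _ hD1', q5d_repr_diag b _ _ hD2', Module.Basis.repr_self,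
        Finsupp.single_apply]
      have e1 := q5d_e1_sq (F := F) j
      have e2 := q5d_e2_sq (F := F) j
      by_cases hjk : j = k
      · subst hjk
        rw [if_pos rfl]
        linear_combination (b.repr w j * (1 + q5dE2 j * q5dE2 j)) * e1 + (2 * b.repr w j) * e2
      · rw [if_neg hjk]
        rcases q5d_sep (F := F) j k hjk with h | h
        · rw [h]
          linear_combination (-(b.repr w k) * (1 + q5dE2 j * q5dE2 k)) * e1
        · rw [h]
          linear_combination (-(b.repr w k) * (1 + q5dE1 j * q5dE1 k)) * e2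
    rw [hw2eq] at hw2
    have hbj : b j ∈ W := by
      have := W.smul_mem (4 * b.repr w j)⁻¹ hw2
      rwa [smul_smul, inv_mul_cancel₀ (mul_ne_zero h4 hj), one_smul] at this
    rw [eq_top_iff, ← b.span_eq, Submodule.span_le, Set.range_subset_iff]
    intro k
    obtain ⟨P, hPR, hPb⟩ := hP j k
    rw [← hPb]
    exact hinv P hPR _ hbj
  · intro M hM
    have hMc : ∀ g ∈ R, M * (g : Matrix (Fin 4) (Fin 4) F) = (g : Matrix (Fin 4) (Fin 4) F) * M :=
      fun g hg => hM g ⟨g, hg, rfl⟩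
    have hdiag : ∀ k, (0 : Fin 4) ≠ k → b.repr (M *ᵥ b 0) k = 0 := by
      intro k hjk
      have key : ∀ (D : GL (Fin 4) F) (e : Fin 4 → F), D ∈ R →
          (∀ i, (D : Matrix (Fin 4) (Fin 4) F) *ᵥ b i = e i • b i) → e 0 * e 0 = 1 → e k = - e 0 →
          b.repr (M *ᵥ b 0) k = 0 := by
        intro D e hDR hDb hej hek
        have h1 : (D : Matrix (Fin 4) (Fin 4) F) *ᵥ (M *ᵥ b 0) = e 0 • (M *ᵥ b 0) := by
          rw [Matrix.mulVec_mulVec, ← hMc D hDR, ← Matrix.mulVec_mulVec, hDb, Matrix.mulVec_smul]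
        have h2' := congrArg (fun v => b.repr v k) h1
        simp only [q5d_repr_diag b _ e hDb, map_smul, Finsupp.smul_apply, smul_eq_mul] at h2'
        rw [hek] at h2'
        have h3 : (2 : F) * b.repr (M *ᵥ b 0) k = 0 := by
          linear_combination (- e 0) * h2' - (2 * b.repr (M *ᵥ b 0) k) * hej
        exact (mul_eq_zero.1 h3).resolve_left h2
      rcases q5d_sep (F := F) 0 k hjk with h | h
      · exact key D1 _ hD1R hD1' (q5d_e1_sq 0) h
      · exact key D2 _ hD2R hD2' (q5d_e2_sq 0) h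
    have h0 : M *ᵥ b 0 = b.repr (M *ᵥ b 0) 0 • b 0 := by
      apply b.ext_elem
      intro k
      simp only [map_smul, Finsupp.smul_apply, smul_eq_mul, Module.Basis.repr_self,
        Finsupp.single_apply]
      by_cases hk : (0 : Fin 4) = k
      · subst hk
        simp
      · rw [if_neg hk, mul_zero]
        exact hdiag k hk
    refine ⟨b.repr (M *ᵥ b 0) 0, ?_⟩
    apply Matrix.toLin'.injective
    apply b.ext
    intro j
    rw [Matrix.toLin'_apply, Matrix.toLin'_apply, Matrix.smul_mulVec, Matrix.one_mulVec]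
    obtain ⟨P, hPR, hPb⟩ := hP 0 j
    rw [← hPb, Matrix.mulVec_mulVec, hMc P hPR, ← Matrix.mulVec_mulVec]
    conv_lhs => rw [h0]
    rw [Matrix.mulVec_smul]

end Cfsg.Agent.Lib.Helper8.Sl4
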