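import Cfsg.Agent.Lib.Helper8.Sl4.SYT1

set_option autoImplicit false

namespace Cfsg.Agent.Lib.Helper8.Sl4

open Cfsg Cfsg.Geo Cfsg.Agent.Lib.Helper77.Asch
open scoped MatrixGroups Matrix

variable {n : ℕ} {F : Type*} [Field F]

theorem ex4_char_cyclic [Finite F] (R : Subgroup (GL (Fin 4) F)) (h : Ex4 R) (i : F) (hi : i ^ 2 = -1)
    (A : Subgroup R) (hA : A.Characteristic) (hc : IsMulCommutative A) : IsCyclic A := by
  -- every element of `A` is central in `R`
  have hcen : ∀ a ∈ A, ∀ b : R, a * b = b * a := by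
    intro a ha b
    by_contra hab
    obtain ⟨φ, hφ⟩ := exists_transvection_aut R h i hi a b hab
    apply hφ
    have h1 : φ a ∈ A := by
      have := Subgroup.characteristic_iff_map_eq.1 hA φ
      rw [← this]
      exact ⟨a, ha, rfl⟩
    have h2 := hc.is_comm.comm ⟨φ a, h1⟩ ⟨a, ha⟩
    exact congrArg Subtype.val h2
  -- so it is scalar
  have hsc : ∀ a ∈ A, (a : GL (Fin 4) F) ∈ scalars (Fin 4) F := by
    intro a ha
    apply mem_scalars_of_commute (by norm_num) R h.abs
    intro x hx
    exact congrArg Subtype.val (hcen a ha ⟨x, hx⟩)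
  -- embed into the (cyclic) group of scalars
  have hcyc : IsCyclic (scalars (Fin 4) F) := by
    exact isCyclic_of_surjective
      (Units.map (Matrix.scalar (Fin 4) : F →+* Matrix (Fin 4) (Fin 4) F).toMonoidHom).rangeRestrict
      (MonoidHom.rangeRestrict_surjective _)
  let f : A →* scalars (Fin 4) F :=
    { toFun := fun a => ⟨((a : R) : GL (Fin 4) F), hsc a.1 a.2⟩
      map_one' := rfl
      map_mul' := fun _ _ => rfl }
  have hf : Function.Injective f := by
    intro x y hxy
    apply Subtype.ext
    apply Subtype.ext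
    exact congrArg (fun w : scalars (Fin 4) F => (w : GL (Fin 4) F)) hxy
  exact isCyclic_of_injective f hf

end Cfsg.Agent.Lib.Helper8.Sl4
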