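import Cfsg.Agent.Lib.Helper8.Sl4.Main
import Cfsg.Agent.Lib.Helper8.Sl4.SYT2
import Cfsg.Agent.Lib.Helper8.Sl4.PLS
import Cfsg.Agent.Lib.Helper8.Sl4.Q5A
import Cfsg.Agent.Lib.Helper8.Sl4.Q5B
import Cfsg.Agent.Lib.Helper8.Sl4.Q5C
import Cfsg.Agent.Lib.Helper8.Sl4.Q5D

/-! Ladder ASL4: maximal subgroups of SL_4(q). -/

set_option autoImplicit false

namespace Cfsg.Agent.Lib.Helper8.Sl4

open Cfsg Cfsg.Geo Cfsg.Agent.Lib.Helper77.Asch
open scoped MatrixGroups Matrix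

variable {n : ℕ} {F : Type*} [Field F]

theorem charP_five [Fintype F] (hq : Fintype.card F = 5) : CharP F 5 := by
  obtain ⟨p, hp⟩ := CharP.exists F
  obtain ⟨k, hpp, hk⟩ := FiniteField.card F p
  rw [hq] at hk
  have h5 : Nat.Prime 5 := by norm_num
  have hdvd : p ∣ 5 := by
    rw [hk]
    exact dvd_pow_self p k.ne_zero
  have : p = 5 := (Nat.prime_dvd_prime_iff_eq hpp h5).1 hdvd
  exact this ▸ hp

theorem order_four (h2 : (2 : F) ≠ 0) (i : F) (hi : i ^ 2 = -1) :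
    ∃ w : Fˣ, (w : F) = i ∧ orderOf w = 4 := by
  have hi0 : i ≠ 0 := by
    rintro rfl
    have h : (0 : F) = -1 := by simpa using hi
    have h1 : (1 : F) = 0 := by linear_combination h
    exact one_ne_zero h1
  refine ⟨Units.mk0 i hi0, rfl, ?_⟩
  apply orderOf_eq_of_pow_and_pow_div_prime (by norm_num)
  · apply Units.ext
    rw [Units.val_pow_eq_pow_val, Units.val_mk0, Units.val_one]
    have : i ^ 4 = (i ^ 2) ^ 2 := by ring
    rw [this, hi]; ring
  · intro p hp hdvd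
    have hp2 := prime_dvd_four hp hdvd
    subst hp2
    intro h
    have h' := congrArg Units.val h
    rw [Units.val_pow_eq_pow_val, Units.val_mk0, Units.val_one] at h'
    have h42 : 4 / 2 = 2 := by norm_num
    rw [h42, hi] at h'
    apply h2
    linear_combination -h'

open Cfsg.Agent.Lib.Helper77.AschG in
theorem ex4_data [Fintype F] (R : Subgroup (GL (Fin 4) F)) (hR : Ex4 R) (i : F) (hi : i ^ 2 = -1)
    (p : ℕ) (hp2 : 2 ≠ p) (hmin : IsMinimalFieldFor 4 p 1 F) : IsLinearSymplecticTypeData 2 R := by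
  obtain ⟨w, -, hw⟩ := order_four hR.two i hi
  obtain ⟨Z, hZ⟩ : ∃ Z, Z = scalars (Fin 4) F := ⟨_, rfl⟩
  have hZc : ∀ z ∈ Z, ∀ g : GL (Fin 4) F, g * z = z * g := fun z hz g => scalars_central z (hZ ▸ hz) g
  have hRab : ⁅R, R⁆ ≤ Z := by
    rw [Subgroup.commutator_le]
    intro x hx y hy
    rw [commutatorElement_def]
    rcases hR.comm x hx y hy with h | h
    · rw [h]
      have : y * x * x⁻¹ * y⁻¹ = 1 := by group
      rw [this]; exact Z.one_mem
    · rw [h]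
      have : sc (-1) * (y * x) * x⁻¹ * y⁻¹ = (sc (-1) : GL (Fin 4) F) := by group
      rw [this, hZ]; exact ex1_sc_mem _
  have hab : ⁅R ⊔ Z, R ⊔ Z⁆ ≤ Z := (ag5_commutator_sup R Z hZc).trans hRab
  have hN : ActsAbsolutelyIrreducibly (matrixSet (R ⊔ Z)) := absIrr_mono (matrixSet_mono le_sup_left) hR.abs
  have hmem : ∀ g, g ∈ R ↔ g ∈ R ⊔ Z ∧ g ^ 4 = 1 := by
    intro g
    constructor
    · intro hg
      exact ⟨(le_sup_left : R ≤ R ⊔ Z) hg, hR.exp g hg⟩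
    · rintro ⟨hg, h4⟩
      obtain ⟨r, hr, z, hz, rfl⟩ := ag5_mem_sup R Z hZc hg
      have hcm : Commute r z := hZc z hz r
      rw [hcm.mul_pow, hR.exp r hr, one_mul] at h4
      exact R.mul_mem hr (hR.sat z (hZ ▸ hz) h4)
  subst hZ
  have hc := card_center (by norm_num) (R ⊔ scalars (Fin 4) F) R 4 (by norm_num) hmem le_sup_right hR.abs w hw
  have hcard : Nat.card R = 2 ^ (2 + 2 * 2) := by
    rw [card_expSub (by norm_num) (R ⊔ scalars (Fin 4) F) R rfl hab hN, hc]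
    norm_num
  have hwR : (sc w : GL (Fin 4) F) ∈ R :=
    hR.sat _ (ex1_sc_mem w) (by rw [ex1_sc_pow, ← hw, pow_orderOf_eq_one, ex1_sc_one])
  refine ⟨⟨Nat.prime_two, ?_, ?_, ?_⟩, hR.abs,
    ⟨p, 1, hp2, by rw [hc]; exact hmin, Or.inr (Or.inl ⟨rfl, rfl, hc, by simp, 2, hcard⟩)⟩⟩
  · intro g
    exact ⟨2, Subtype.ext (by simpa using hR.exp g g.2)⟩
  · intro A hA hcA
    exact ex4_char_cyclic R hR i hi A hA hcA
  · rw [exponent_expSub (by norm_num) R 4 hR.exp w hw hwR]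
    rfl

theorem decomp_five [Fintype F] (hq : Fintype.card F = 5) (D : Fin 4 → Submodule F (Fin 4 → F))
    (hD : IsMDecomposition 1 D) :
    ∃ R : Subgroup (GL (Fin 4) F), IsLinearSymplecticTypeData 2 R ∧
      decompositionStabilizer D ⊓ specialLinear (Fin 4) F ≤ subgroupNormalizer R := by
  obtain ⟨b, hb⟩ := sq2_basis D hD
  obtain ⟨R, hR⟩ := exists_pauli b
  have hch : CharP F 5 := charP_five hq
  have h5 : (5 : F) = 0 := by
    have := CharP.cast_eq_zero F 5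
    exact_mod_cast this
  have h2 : (2 : F) ≠ 0 := by
    intro h
    have h1 : (1 : F) = 0 := by linear_combination h5 - 2 * h
    exact one_ne_zero h1
  have hi : (2 : F) ^ 2 = -1 := by linear_combination h5
  have hsc : (sc (-1 : Fˣ) : GL (Fin 4) F) ^ 2 = 1 := by
    rw [ex1_sc_pow]
    simp [ex1_sc_one]
  have hex : Ex4 R := by
    refine ⟨h2, ?_, ?_, ?_, pauli_abs h2 b R hR, ?_⟩
    · intro g hg
      have h := (pauli_rel b g g ((hR g).1 hg) ((hR g).1 hg)).1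
      have h4 : g ^ 4 = (g ^ 2) ^ 2 := by rw [← pow_mul]
      rcases h with h | h
      · rw [h4, h, one_pow]
      · rw [h4, h, hsc]
    · intro g hg
      exact (pauli_rel b g g ((hR g).1 hg) ((hR g).1 hg)).1
    · intro x hx y hy
      exact (pauli_rel b x y ((hR x).1 hx) ((hR y).1 hy)).2
    · intro z hz h4
      exact (hR z).2 (pauli_sat b z hz h4)
  refine ⟨R, ex4_data R hex 2 hi 5 (by norm_num) ⟨by norm_num, hch, by rw [hq, pow_one], by norm_num, ?_⟩, ?_⟩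
  · intro d h0 h1
    omega
  · apply le_normalizer_of_normBy
    intro m hm g hg
    obtain ⟨ρ, d, -, hmd⟩ := sq2_monomial D b hb m hm.1
    exact (hR _).2 (monomial_normalizes_pauli hq b m hm.2 ρ d hmd g ((hR g).1 hg))

theorem eq_of_le' {H M : Subgroup (GL (Fin n) F)} (hH : IsMaximalIn (specialLinear (Fin n) F) H)
    (hle : H ≤ M ⊓ specialLinear (Fin n) F) {M' : Subgroup (GL (Fin n) F)}
    (hM : M ⊓ specialLinear (Fin n) F ≤ M') : H ≤ M' := hle.trans hM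

theorem c6_data4 [Fintype F] (R : Subgroup (GL (Fin 4) F)) (h : IsLinearSymplecticTypeData 2 R) :
    ∃ p : ℕ, p.Prime ∧ CharP F p ∧ 2 ≠ p ∧ Fintype.card F = p ∧ p % 4 = 1 := by
  obtain ⟨p, e, hnp, ⟨hp, hch, hcard, hdvd, -⟩, hcase⟩ := h.field
  rcases hcase with ⟨h2, -⟩ | ⟨-, he, hz, -⟩ | ⟨-, -, h2, -⟩
  · exact absurd h2 (by decide)
  · subst he
    rw [hz, pow_one] at hdvd
    rw [pow_one] at hcard
    have h1 := hp.one_lt
    exact ⟨p, hp, hch, hnp, hcard, by omega⟩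
  · simp at h2

theorem maximal_cases4 [Fintype F] (H : Subgroup (GL (Fin 4) F))
    (hH : IsMaximalIn (specialLinear (Fin 4) F) H) :
    (∃ W : Submodule F (Fin 4 → F), W ≠ ⊥ ∧ W ≠ ⊤ ∧ H = subspaceStabilizer W ⊓ specialLinear (Fin 4) F) ∨
    (7 ≤ Fintype.card F ∧ ∃ D : Fin 4 → Submodule F (Fin 4 → F), IsMDecomposition 1 D ∧
      H = decompositionStabilizer D ⊓ specialLinear (Fin 4) F) ∨
    (4 ≤ Fintype.card F ∧ ∃ D : Fin 2 → Submodule F (Fin 4 → F), IsMDecomposition 2 D ∧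
      H = decompositionStabilizer D ⊓ specialLinear (Fin 4) F) ∨
    (∃ K : Subalgebra F (Matrix (Fin 4) (Fin 4) F), IsFieldSubalgebra 2 K ∧
      H = subalgebraNormalizer K ⊓ specialLinear (Fin 4) F) ∨
    (∃ (F₀ : Subfield F) (r : ℕ) (P : GL (Fin 4) F), r.Prime ∧ Fintype.card F = Nat.card F₀ ^ r ∧
      H = subfieldSubgroup F₀ P ⊓ specialLinear (Fin 4) F) ∨
    (∃ (p : ℕ) (R : Subgroup (GL (Fin 4) F)), p.Prime ∧ Fintype.card F = p ∧ p % 4 = 1 ∧
      IsLinearSymplecticTypeData 2 R ∧ H = subgroupNormalizer R ⊓ specialLinear (Fin 4) F) ∨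
    (Odd (Fintype.card F) ∧ ∃ Q : (Fin 4 → F) → F, IsNondegenerateQuadraticForm Q ∧
      H = quadSimilarityGroup Q ⊓ specialLinear (Fin 4) F) ∨
    (∃ f : (Fin 4 → F) → (Fin 4 → F) → F, IsSymplecticForm f ∧
      H = similarityGroup f ⊓ specialLinear (Fin 4) F) ∨
    (∃ (σ : F ≃+* F) (f : (Fin 4 → F) → (Fin 4 → F) → F), IsUnitaryForm σ f ∧
      H = similarityGroup f ⊓ specialLinear (Fin 4) F) ∨
    InLinearResidualClass H := by
  have h3 : 3 ≤ 4 := by norm_num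
  have hSL : H ≤ specialLinear (Fin 4) F := hH.1.le
  have caseW : ∀ W : Submodule F (Fin 4 → F), W ≠ ⊥ → W ≠ ⊤ → H ≤ subspaceStabilizer W →
      ∃ W : Submodule F (Fin 4 → F), W ≠ ⊥ ∧ W ≠ ⊤ ∧ H = subspaceStabilizer W ⊓ specialLinear (Fin 4) F :=
    fun W h0 h1 hle => ⟨W, h0, h1, eq_of_le hH hle (not_le_subspace W h0 h1)⟩
  have caseQ : ∀ Q : (Fin 4 → F) → F, IsNondegenerateQuadraticForm Q → H ≤ quadSimilarityGroup Q →
      ∃ Q : (Fin 4 → F) → F, IsNondegenerateQuadraticForm Q ∧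
        H = quadSimilarityGroup Q ⊓ specialLinear (Fin 4) F :=
    fun Q hQ hle => ⟨Q, hQ, eq_of_le hH hle (not_le_quadSim h3 Q hQ)⟩
  have caseS : ∀ f : (Fin 4 → F) → (Fin 4 → F) → F, IsSymplecticForm f → H ≤ similarityGroup f →
      ∃ f : (Fin 4 → F) → (Fin 4 → F) → F, IsSymplecticForm f ∧
        H = similarityGroup f ⊓ specialLinear (Fin 4) F :=
    fun f hf hle => ⟨f, hf, eq_of_le hH hle (Cfsg.Agent.Lib.Helper5.AschC.not_le_sympSim h3 f hf)⟩
  have caseU : ∀ (σ : F ≃+* F) (f : (Fin 4 → F) → (Fin 4 → F) → F), IsUnitaryForm σ f →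
      H ≤ similarityGroup f → ∃ (σ : F ≃+* F) (f : (Fin 4 → F) → (Fin 4 → F) → F), IsUnitaryForm σ f ∧
        H = similarityGroup f ⊓ specialLinear (Fin 4) F :=
    fun σ f hf hle => ⟨σ, f, hf, eq_of_le hH hle (not_le_unitarySim h3 σ f hf)⟩
  have caseR : ∀ R : Subgroup (GL (Fin 4) F), IsLinearSymplecticTypeData 2 R → H ≤ subgroupNormalizer R →
      ∃ (p : ℕ) (R : Subgroup (GL (Fin 4) F)), p.Prime ∧ Fintype.card F = p ∧ p % 4 = 1 ∧
        IsLinearSymplecticTypeData 2 R ∧ H = subgroupNormalizer R ⊓ specialLinear (Fin 4) F := by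
    intro R hR hle
    obtain ⟨p, hp, hch, hnp, hcard, hmod⟩ := c6_data4 R hR
    have hns : ¬ R ≤ scalars (Fin 4) F := fun h => not_irr_of_le_scalars (by norm_num) R h hR.absIrred.1
    exact ⟨p, R, hp, hcard, hmod, hR,
      eq_of_le hH hle (not_le_normalizer h3 2 p hp Nat.prime_two hnp R hR.symplecticType.pGroup hns)⟩
  rcases main4 H with hgeo | hres
  swap
  · exact Or.inr (Or.inr (Or.inr (Or.inr (Or.inr (Or.inr (Or.inr (Or.inr (Or.inr hres))))))))
  have h1q : 1 < Fintype.card F := Fintype.one_lt_card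
  rcases hgeo with ⟨W, h0, h1, hle⟩ | ⟨D, hD, hle⟩ | ⟨D, hD, hle⟩ | ⟨K, hK, hle⟩ | ⟨F₀, r, P, hr, hc, hle⟩ |
    ⟨R, hR, hle⟩ | ⟨ho, Q, hQ, hle⟩ | ⟨f, hf, hle⟩ | ⟨σ, f, hf, hle⟩
  · exact Or.inl (caseW W h0 h1 hle)
  · by_cases h7 : 7 ≤ Fintype.card F
    · exact Or.inr (Or.inl ⟨h7, D, hD, eq_of_le hH hle (not_le_decomp D hD)⟩)
    · have h6 : Fintype.card F ≠ 6 := by
        intro h
        obtain ⟨p, k, hp, hk, hpk⟩ := (isPrimePow_nat_iff _).1 (FiniteField.isPrimePow_card F)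
        rw [h] at hpk
        have h2 : 2 ∣ p ^ k := by rw [hpk]; norm_num
        have h3' : 3 ∣ p ^ k := by rw [hpk]; norm_num
        have e2 := (Nat.prime_dvd_prime_iff_eq Nat.prime_two hp).1 (Nat.prime_two.dvd_of_dvd_pow h2)
        have e3 := (Nat.prime_dvd_prime_iff_eq Nat.prime_three hp).1 (Nat.prime_three.dvd_of_dvd_pow h3')
        omega
      have hq : Fintype.card F = 2 ∨ Fintype.card F = 3 ∨ Fintype.card F = 4 ∨ Fintype.card F = 5 := by omega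
      rcases hq with hq | hq | hq | hq
      · obtain ⟨W, h0, h1, hW⟩ := decomp_two (by norm_num) hq D hD
        exact Or.inl (caseW W h0 h1 (hle.trans hW))
      · obtain ⟨Q, hQ, hle'⟩ := decomp_three hq D hD
        exact Or.inr (Or.inr (Or.inr (Or.inr (Or.inr (Or.inr (Or.inl ⟨by rw [hq]; decide,
          caseQ Q hQ (hle.trans hle')⟩))))))
      · obtain ⟨σ, f, hf, hle'⟩ := decomp_four hq D hD
        exact Or.inr (Or.inr (Or.inr (Or.inr (Or.inr (Or.inr (Or.inr (Or.inr (Or.inl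
          (caseU σ f hf (hle.trans hle'))))))))))
      · obtain ⟨R, hR, hle'⟩ := decomp_five hq D hD
        exact Or.inr (Or.inr (Or.inr (Or.inr (Or.inr (Or.inl (caseR R hR ((le_inf hle hSL).trans hle')))))))
  · by_cases h4 : 4 ≤ Fintype.card F
    · exact Or.inr (Or.inr (Or.inl ⟨h4, D, hD, eq_of_le hH hle (not_le_decomp D hD)⟩))
    · obtain ⟨f, hf, hle'⟩ := planes_small (by omega) D hD
      exact Or.inr (Or.inr (Or.inr (Or.inr (Or.inr (Or.inr (Or.inr (Or.inl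
        (caseS f hf ((le_inf hle hSL).trans hle')))))))))
  · exact Or.inr (Or.inr (Or.inr (Or.inl ⟨K, hK, eq_of_le hH hle (Cfsg.Agent.Lib.Helper5.AschC.not_le_fieldNormalizer' h3 2 (by norm_num) K hK)⟩)))
  · exact Or.inr (Or.inr (Or.inr (Or.inr (Or.inl ⟨F₀, r, P, hr, hc,
      eq_of_le hH hle (not_le_subfield (by norm_num) F₀ (subfield_ne_top F₀ r hr hc) P)⟩))))
  · exact Or.inr (Or.inr (Or.inr (Or.inr (Or.inr (Or.inl (caseR R hR hle))))))
  · exact Or.inr (Or.inr (Or.inr (Or.inr (Or.inr (Or.inr (Or.inl ⟨ho, caseQ Q hQ hle⟩))))))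
  · exact Or.inr (Or.inr (Or.inr (Or.inr (Or.inr (Or.inr (Or.inr (Or.inl (caseS f hf hle))))))))
  · exact Or.inr (Or.inr (Or.inr (Or.inr (Or.inr (Or.inr (Or.inr (Or.inr (Or.inl (caseU σ f hf hle)))))))))

end Cfsg.Agent.Lib.Helper8.Sl4
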