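import Cfsg.Agent.Lib.Helper8.Sl4.Defs
import Cfsg.Agent.Lib.Helper76.PermSolvable

set_option autoImplicit false
set_option maxHeartbeats 200000

namespace Cfsg.Agent.Lib.Helper8.Sl4

open Cfsg Cfsg.Geo Cfsg.Agent.Lib.Helper77.Asch
open scoped MatrixGroups Matrix

variable {n : ℕ} {F : Type*} [Field F]

theorem stabt_ne_bot {t m : ℕ} (D : Fin t → Submodule F (Fin n → F)) (hD : IsMDecomposition m D) (i : Fin t) :
    D i ≠ ⊥ := by
  intro h
  have h1 := hD.finrank_eq i
  rw [h, finrank_bot] at h1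
  have := hD.pos
  omega

/-- the permutation induced by an element of the stabiliser. -/
noncomputable def stabtPerm {t : ℕ} (D : Fin t → Submodule F (Fin n → F)) (g : decompositionStabilizer D) :
    Equiv.Perm (Fin t) := Classical.choose g.2

theorem stabtPerm_spec {t : ℕ} (D : Fin t → Submodule F (Fin n → F)) (g : decompositionStabilizer D)
    (i : Fin t) : (D i).map (Matrix.toLin' ((g : GL (Fin n) F) : Matrix (Fin n) (Fin n) F)) = D (stabtPerm D g i) :=
  Classical.choose_spec g.2 i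

/-- the permutation action as a homomorphism. -/
noncomputable def stabtHom {t m : ℕ} (D : Fin t → Submodule F (Fin n → F)) (hD : IsMDecomposition m D) :
    decompositionStabilizer D →* Equiv.Perm (Fin t) :=
  MonoidHom.mk' (stabtPerm D) (by
    intro a b
    have hinj : Function.Injective D := hD.indep.injective (stabt_ne_bot D hD)
    ext i
    apply congrArg Fin.val
    apply hinj
    rw [← stabtPerm_spec D (a * b) i, Equiv.Perm.mul_apply, ← stabtPerm_spec D a, ← stabtPerm_spec D b i,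
      Subgroup.coe_mul, Units.val_mul, Matrix.toLin'_mul, Submodule.map_comp])

theorem stabt_perfect_ker {S Q : Type*} [Group S] [Group Q] (hQ : Group.IsSolvable Q) (φ : S →* Q)
    (P : Subgroup S) (hP : ⁅P, P⁆ = P) : ∀ g ∈ P, φ g = 1 := by
  have hX : ⁅P.map φ, P.map φ⁆ = P.map φ := by rw [← Subgroup.map_commutator, hP]
  have key : ∀ j : ℕ, P.map φ ≤ derivedSeries Q j := by
    intro j
    induction j with
    | zero => exact le_top
    | succ j ih =>
      rw [derivedSeries_succ, ← hX]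
      exact Subgroup.commutator_mono ih ih
  obtain ⟨k, hk⟩ := hQ.solvable
  intro g hg
  have h := key k ⟨g, hg, rfl⟩
  rw [hk] at h
  exact Subgroup.mem_bot.1 h

theorem stabt_subgroupOf_perfect {G : Type*} [Group G] (P S : Subgroup G) (hPS : P ≤ S) (hP : ⁅P, P⁆ = P) :
    ⁅P.subgroupOf S, P.subgroupOf S⁆ = P.subgroupOf S := by
  apply Subgroup.map_injective S.subtype_injective
  rw [Subgroup.map_commutator, Subgroup.map_subgroupOf_eq_of_le hPS, hP]

theorem stabt_fix {t m : ℕ} (ht : t ≤ 4) (D : Fin t → Submodule F (Fin n → F)) (hD : IsMDecomposition m D)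
    (P : Subgroup (GL (Fin n) F)) (hP : ⁅P, P⁆ = P) (hle : P ≤ decompositionStabilizer D)
    (g : GL (Fin n) F) (hg : g ∈ P) (i : Fin t) :
    (D i).map (Matrix.toLin' (g : Matrix (Fin n) (Fin n) F)) = D i := by
  have hcard : Fintype.card (Fin t) ≤ 4 := by rw [Fintype.card_fin]; exact ht
  have hsolv : Group.IsSolvable (Equiv.Perm (Fin t)) :=
    Cfsg.Agent.Lib.Helper76.isSolvable_perm_of_card_le_four (Fin t) hcard
  have h1 := stabt_perfect_ker hsolv (stabtHom D hD) (P.subgroupOf (decompositionStabilizer D))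
    (stabt_subgroupOf_perfect P _ hle hP) ⟨g, hle hg⟩ (Subgroup.mem_subgroupOf.2 hg)
  have h2 : stabtPerm D ⟨g, hle hg⟩ = 1 := h1
  have h := stabtPerm_spec D ⟨g, hle hg⟩ i
  rw [h2] at h
  exact h

/-- STABT. -/
theorem not_irr_of_decomp (N : Subgroup (GL (Fin 4) F)) (hPZ : ⁅N, N⁆ ⊔ scalars (Fin 4) F = N)
    (hperf : ⁅⁅N, N⁆, ⁅N, N⁆⁆ = ⁅N, N⁆) {t m : ℕ} (ht : t ≤ 4) (D : Fin t → Submodule F (Fin 4 → F))
    (hD : IsMDecomposition m D) (hle : N ≤ decompositionStabilizer D) :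
    ¬ ActsIrreducibly (matrixSet N) := by
  have hPN : ⁅N, N⁆ ≤ N := by
    conv_rhs => rw [← hPZ]
    exact le_sup_left
  have hfix := stabt_fix ht D hD ⁅N, N⁆ hperf (hPN.trans hle)
  have h2 := hD.two_le
  obtain ⟨i₀, hi₀⟩ : ∃ i₀ : Fin t, i₀ = ⟨0, by omega⟩ := ⟨_, rfl⟩
  obtain ⟨i₁, hi₁⟩ : ∃ i₁ : Fin t, i₁ = ⟨1, by omega⟩ := ⟨_, rfl⟩
  have hne : i₀ ≠ i₁ := by
    rw [hi₀, hi₁]
    intro h
    have := congrArg Fin.val h
    simp at this
  intro hirr
  rw [cl1_irr_iff] at hirr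
  have hinv : cl1Inv N (D i₀) := by
    intro x hx w hw
    have hx' : x ∈ ⁅N, N⁆ ⊔ scalars (Fin 4) F := by rw [hPZ]; exact hx
    obtain ⟨p, hp, z, hz, rfl⟩ := ag5_mem_sup _ _ (fun z hz g => scalars_central z hz g) hx'
    obtain ⟨c, hc⟩ := (mem_scalars_iff z).1 hz
    rw [cl1T_mul]
    have hzw : cl1T z w = (c : F) • w := by
      rw [cl1T_apply, hc, Matrix.smul_mulVec, Matrix.one_mulVec]
    rw [hzw, ← hfix p hp i₀]
    exact ⟨(c : F) • w, (D i₀).smul_mem _ hw, rfl⟩
  rcases hirr _ hinv with h | h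
  · exact stabt_ne_bot D hD i₀ h
  · have hdis : Disjoint (D i₀) (D i₁) := hD.indep.pairwiseDisjoint hne
    rw [h, top_disjoint] at hdis
    exact stabt_ne_bot D hD i₁ hdis

end Cfsg.Agent.Lib.Helper8.Sl4
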