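import Cfsg.Agent.Lib.Helper8.Sl4.Defs

set_option autoImplicit false

namespace Cfsg.Agent.Lib.Helper8.Sl4

open Cfsg Cfsg.Geo Cfsg.Agent.Lib.Helper77.Asch
open scoped MatrixGroups Matrix Kronecker

variable {n : ℕ} {F : Type*} [Field F]

/-- the determinant form on `F^(2×2)`. -/
def tq22Q (u : Fin 2 × Fin 2 → F) : F := u (0, 0) * u (1, 1) - u (0, 1) * u (1, 0)

/-- its polar form. -/
def tq22B (x y : Fin 2 × Fin 2 → F) : F :=
  x (0, 0) * y (1, 1) + x (1, 1) * y (0, 0) - x (0, 1) * y (1, 0) - x (1, 0) * y (0, 1)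

theorem tq22_kron (a b : Matrix (Fin 2) (Fin 2) F) (u : Fin 2 × Fin 2 → F) :
    tq22Q ((a ⊗ₖ b) *ᵥ u) = a.det * b.det * tq22Q u := by
  simp only [tq22Q, Matrix.mulVec, dotProduct, Fintype.sum_prod_type, Fin.sum_univ_two,
    Matrix.kroneckerMap_apply, Matrix.det_fin_two]
  ring

/-- coordinates. -/
def tq22L (e : Fin 4 ≃ Fin 2 × Fin 2) (P : GL (Fin 4) F) (v : Fin 4 → F) : Fin 2 × Fin 2 → F :=
  fun x => (((P⁻¹ : GL (Fin 4) F) : Matrix (Fin 4) (Fin 4) F) *ᵥ v) (e.symm x)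

theorem tq22L_add (e : Fin 4 ≃ Fin 2 × Fin 2) (P : GL (Fin 4) F) (u v : Fin 4 → F) :
    tq22L e P (u + v) = tq22L e P u + tq22L e P v := by
  funext x; simp [tq22L, Matrix.mulVec_add]

theorem tq22L_smul (e : Fin 4 ≃ Fin 2 × Fin 2) (P : GL (Fin 4) F) (c : F) (v : Fin 4 → F) :
    tq22L e P (c • v) = c • tq22L e P v := by
  funext x; simp [tq22L, Matrix.mulVec_smul]

theorem tq22L_surj (e : Fin 4 ≃ Fin 2 × Fin 2) (P : GL (Fin 4) F) (w : Fin 2 × Fin 2 → F) :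
    ∃ v, tq22L e P v = w := by
  refine ⟨(P : Matrix (Fin 4) (Fin 4) F) *ᵥ (w ∘ e), ?_⟩
  funext x
  simp only [tq22L]
  rw [Matrix.mulVec_mulVec, ← Units.val_mul, inv_mul_cancel, Units.val_one, Matrix.one_mulVec]
  simp

theorem tq22L_ne (e : Fin 4 ≃ Fin 2 × Fin 2) (P : GL (Fin 4) F) (v : Fin 4 → F) (hv : v ≠ 0) :
    tq22L e P v ≠ 0 := by
  intro h
  apply hv
  have h1 : ((P⁻¹ : GL (Fin 4) F) : Matrix (Fin 4) (Fin 4) F) *ᵥ v = 0 := by
    funext i
    have := congrFun h (e i)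
    simpa [tq22L] using this
  have h2 := congrArg (fun w => (P : Matrix (Fin 4) (Fin 4) F) *ᵥ w) h1
  simp only [Matrix.mulVec_mulVec, Matrix.mulVec_zero] at h2
  rwa [← Units.val_mul, mul_inv_cancel, Units.val_one, Matrix.one_mulVec] at h2

theorem tq22B_nondeg (y : Fin 2 × Fin 2 → F) (hy : y ≠ 0) : ∃ x, tq22B x y ≠ 0 := by
  classical
  by_contra hcon
  push Not at hcon
  apply hy
  have h00 := hcon (Pi.single (1, 1) 1)
  have h11 := hcon (Pi.single (0, 0) 1)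
  have h01 := hcon (Pi.single (1, 0) 1)
  have h10 := hcon (Pi.single (0, 1) 1)
  simp [tq22B, Pi.single_apply] at h00 h11 h01 h10
  funext ⟨i, k⟩
  fin_cases i <;> fin_cases k <;> simp_all

theorem tq22B_comm (x y : Fin 2 × Fin 2 → F) : tq22B x y = tq22B y x := by
  simp only [tq22B]; ring

/-- TQ22. -/
theorem tensor22_quad (e : Fin 4 ≃ Fin 2 × Fin 2) (P : GL (Fin 4) F) :
    ∃ Q : (Fin 4 → F) → F, IsNondegenerateQuadraticForm Q ∧
      tensorProductSubgroup 2 2 e P ≤ quadSimilarityGroup Q := by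
  have hpol : ∀ u v, QuadraticMap.polar (fun v => tq22Q (tq22L e P v)) u v
      = tq22B (tq22L e P u) (tq22L e P v) := by
    intro u v
    simp only [QuadraticMap.polar, tq22L_add, tq22Q, tq22B, Pi.add_apply]
    ring
  refine ⟨fun v => tq22Q (tq22L e P v), ⟨?_, ⟨?_, ?_, ?_, ?_⟩, ?_⟩, ?_⟩
  · intro c v
    simp only [tq22L_smul, tq22Q, Pi.smul_apply, smul_eq_mul]
    ring
  · intro x y v
    simp only [hpol, tq22L_add, tq22B, Pi.add_apply]; ring
  · intro c x v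
    simp only [hpol, tq22L_smul, tq22B, Pi.smul_apply, smul_eq_mul]; ring
  · intro v x y
    simp only [hpol, tq22L_add, tq22B, Pi.add_apply]; ring
  · intro c v x
    simp only [hpol, tq22L_smul, tq22B, Pi.smul_apply, smul_eq_mul]; ring
  · intro v hv
    obtain ⟨w, hw⟩ := tq22B_nondeg _ (tq22L_ne e P v hv)
    obtain ⟨x, rfl⟩ := tq22L_surj e P w
    exact ⟨⟨x, by rw [hpol]; exact hw⟩, ⟨x, by rw [hpol, tq22B_comm]; exact hw⟩⟩
  · rintro _ ⟨_, ⟨k, ⟨a, b, hk⟩, rfl⟩, rfl⟩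
    refine ⟨Matrix.GeneralLinearGroup.det a * Matrix.GeneralLinearGroup.det b, fun v => ?_⟩
    have hL : tq22L e P (((MulAut.conj P).toMonoidHom ((glReindex e.symm).toMonoidHom k) : GL (Fin 4) F).1 *ᵥ v)
        = ((a : Matrix (Fin 2) (Fin 2) F) ⊗ₖ (b : Matrix (Fin 2) (Fin 2) F)) *ᵥ tq22L e P v := by
      funext x
      have h1 : ((MulAut.conj P).toMonoidHom ((glReindex e.symm).toMonoidHom k) : GL (Fin 4) F)
          = P * (glReindex e.symm k) * P⁻¹ := rfl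
      have h2 : ((glReindex e.symm k : GL (Fin 4) F) : Matrix (Fin 4) (Fin 4) F)
          = ((a : Matrix (Fin 2) (Fin 2) F) ⊗ₖ (b : Matrix (Fin 2) (Fin 2) F)).submatrix e e := by
        rw [← hk]; rfl
      simp only [tq22L]
      rw [h1, Matrix.mulVec_mulVec, ← Units.val_mul]
      have h3 : P⁻¹ * (P * (glReindex e.symm k) * P⁻¹) = (glReindex e.symm k) * P⁻¹ := by group
      rw [h3, Units.val_mul, ← Matrix.mulVec_mulVec, h2, Matrix.submatrix_mulVec_equiv]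
      simp only [Function.comp, Equiv.apply_symm_apply]
      rfl
    change tq22Q (tq22L e P _) = _
    rw [hL, tq22_kron]
    rfl

end Cfsg.Agent.Lib.Helper8.Sl4
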