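import Cfsg.Agent.Lib.Helper8.Sl4.Defs
import Cfsg.Agent.Lib.Helper8.Sl4.TQ22
import Cfsg.Agent.Lib.Helper8.Sl4.STABT
import Cfsg.Agent.Lib.Helper8.Sl4.CENK
import Cfsg.Agent.Lib.Helper8.Sl4.COMQ
import Cfsg.Agent.Lib.Helper5.AschC.MINI
import Cfsg.Agent.Lib.Helper5.AschC.ORB1
import Cfsg.Agent.Lib.Helper5.AschC.ORB2
import Cfsg.Agent.Lib.Helper5.AschC.IDF
import Cfsg.Agent.Lib.Helper5.AschC.CENF
import Cfsg.Agent.Lib.Helper5.AschC.FLD
import Cfsg.Agent.Lib.Helper5.AschC.DENS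
import Cfsg.Agent.Lib.Helper5.AschC.TENS
import Cfsg.Agent.Lib.Helper5.AschC.NTEN
import Cfsg.Agent.Lib.Helper5.AschC.EXT
import Cfsg.Agent.Lib.Helper5.AschC.NRM
import Cfsg.Agent.Lib.Helper5.AschC.DIM
import Cfsg.Agent.Lib.Helper5.AschC.PRK
import Cfsg.Agent.Lib.Helper5.AschC.PRS
import Cfsg.Agent.Lib.Helper77.AschG.RGRP
import Cfsg.Agent.Lib.Helper77.AschG.NPOW
import Cfsg.Agent.Lib.Helper77.AschG.EXP2
import Cfsg.Agent.Lib.Helper77.AschG.PAIR
import Cfsg.Agent.Lib.Helper77.AschG.FC4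
import Cfsg.Agent.Lib.Helper77.AschG.MONO
import Cfsg.Agent.Lib.Helper77.AschG.MONOR
import Cfsg.Agent.Lib.Helper77.AschG.ROOT
import Cfsg.Agent.Lib.Helper77.AschG.CEN
import Cfsg.Agent.Lib.Helper77.AschG.CARDR
import Cfsg.Agent.Lib.Helper77.AschG.CHAR
import Cfsg.Agent.Lib.Helper77.AschG.EXPN
import Cfsg.Agent.Lib.Helper77.AschG.MONOU
import Cfsg.Agent.Lib.Helper77.AschG.BIL

/-! Ladder ASL4: assembly of Aschbacher's theorem for subgroups of GL_4(q). -/

set_option autoImplicit false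

namespace Cfsg.Agent.Lib.Helper8.Sl4

open Cfsg Cfsg.Geo Cfsg.Agent.Lib.Helper77.Asch
open scoped MatrixGroups Matrix

variable {n : ℕ} {F : Type*} [Field F]

theorem InGeo4.mono [Fintype F] {H K : Subgroup (GL (Fin 4) F)} (h : H ≤ K) (hK : InGeo4 K) : InGeo4 H := by
  rcases hK with ⟨W, h0, h1, h2⟩ | ⟨D, h1, h2⟩ | ⟨D, h1, h2⟩ | ⟨A, h1, h2⟩ | ⟨F₀, r, P, h1, h2, h3⟩ |
    ⟨R, h1, h2⟩ | ⟨h0, Q, h1, h2⟩ | ⟨f, h1, h2⟩ | ⟨σ, f, h1, h2⟩
  · exact Or.inl ⟨W, h0, h1, h.trans h2⟩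
  · exact Or.inr (Or.inl ⟨D, h1, h.trans h2⟩)
  · exact Or.inr (Or.inr (Or.inl ⟨D, h1, h.trans h2⟩))
  · exact Or.inr (Or.inr (Or.inr (Or.inl ⟨A, h1, h.trans h2⟩)))
  · exact Or.inr (Or.inr (Or.inr (Or.inr (Or.inl ⟨F₀, r, P, h1, h2, h.trans h3⟩))))
  · exact Or.inr (Or.inr (Or.inr (Or.inr (Or.inr (Or.inl ⟨R, h1, h.trans h2⟩)))))
  · exact Or.inr (Or.inr (Or.inr (Or.inr (Or.inr (Or.inr (Or.inl ⟨h0, Q, h1, h.trans h2⟩))))))
  · exact Or.inr (Or.inr (Or.inr (Or.inr (Or.inr (Or.inr (Or.inr (Or.inl ⟨f, h1, h.trans h2⟩)))))))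
  · exact Or.inr (Or.inr (Or.inr (Or.inr (Or.inr (Or.inr (Or.inr (Or.inr ⟨σ, f, h1, h.trans h2⟩)))))))

theorem symplectic_of_quad (h2 : (2 : F) = 0) (Q : (Fin n → F) → F)
    (hQ : IsNondegenerateQuadraticForm Q) : IsSymplecticForm (QuadraticMap.polar Q) := by
  refine ⟨hQ.polar_bilinear, ?_, ?_, hQ.nondegenerate⟩
  · intro v w
    rw [QuadraticMap.polar_comm Q v w, eq_neg_iff_add_eq_zero, ← two_mul, h2, zero_mul]
  · intro v
    rw [formq_polar_self Q hQ, h2, zero_mul]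

theorem quadSim_le_polarSim (Q : (Fin n → F) → F) :
    quadSimilarityGroup Q ≤ similarityGroup (QuadraticMap.polar Q) := by
  rintro g ⟨c, hc⟩
  refine ⟨c, fun u v => ?_⟩
  simp only [QuadraticMap.polar, ← Matrix.mulVec_add, hc]
  ring

theorem fixes_polar (S : Set (Matrix (Fin n) (Fin n) F)) (Q : (Fin n → F) → F)
    (h : FixesQuadForm S Q) : FixesForm S (QuadraticMap.polar Q) := by
  intro s hs u v
  simp only [QuadraticMap.polar, ← Matrix.mulVec_add, h s hs]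

theorem normalizer_le_sympSim (P : Subgroup (GL (Fin n) F))
    (hP : ActsAbsolutelyIrreducibly (matrixSet P)) (f : (Fin n → F) → (Fin n → F) → F)
    (hf : IsSymplecticForm f) (hfix : FixesForm (matrixSet P) f) :
    subgroupNormalizer P ≤ similarityGroup f :=
  formu_key P hP (RingEquiv.refl F) f hf.bilinear.add_left hf.bilinear.smul_left hf.bilinear.add_right
    (fun c v x => by simpa using hf.bilinear.smul_right c v x) hf.nondegenerate hfix

theorem geo_of_quadSim [Fintype F] (H : Subgroup (GL (Fin 4) F)) (Q : (Fin 4 → F) → F)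
    (hQ : IsNondegenerateQuadraticForm Q) (hle : H ≤ quadSimilarityGroup Q) : InGeo4 H := by
  by_cases h2 : (2 : F) = 0
  · exact Or.inr (Or.inr (Or.inr (Or.inr (Or.inr (Or.inr (Or.inr (Or.inl
      ⟨_, symplectic_of_quad h2 Q hQ, hle.trans (quadSim_le_polarSim Q)⟩)))))))
  · exact Or.inr (Or.inr (Or.inr (Or.inr (Or.inr (Or.inr (Or.inl
      ⟨odd_card_of_two_ne_zero h2, Q, hQ, hle⟩))))))

theorem geo_of_fixes_quad [Fintype F] (H P : Subgroup (GL (Fin 4) F))
    (hP : ActsAbsolutelyIrreducibly (matrixSet P)) (hn : H ≤ subgroupNormalizer P) (Q : (Fin 4 → F) → F)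
    (hQ : IsNondegenerateQuadraticForm Q) (hfix : FixesQuadForm (matrixSet P) Q) : InGeo4 H := by
  by_cases h2 : (2 : F) = 0
  · exact Or.inr (Or.inr (Or.inr (Or.inr (Or.inr (Or.inr (Or.inr (Or.inl
      ⟨_, symplectic_of_quad h2 Q hQ,
        hn.trans (normalizer_le_sympSim P hP _ (symplectic_of_quad h2 Q hQ) (fixes_polar _ Q hfix))⟩)))))))
  · exact Or.inr (Or.inr (Or.inr (Or.inr (Or.inr (Or.inr (Or.inl
      ⟨odd_card_of_two_ne_zero h2, Q, hQ, hn.trans (normalizer_le_quadSim h2 P hP Q hQ hfix)⟩))))))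

open Cfsg.Agent.Lib.Helper5.AschC in
/-- Clifford theory in algebra form (helper5's rungs). -/
theorem cliffC [Fintype F] (hn : 0 < n) (G N : Subgroup (GL (Fin n) F)) (hnorm : NormBy G N)
    (hG : ActsIrreducibly (matrixSet G)) :
    (∃ (t m : ℕ) (D : Fin t → Submodule F (Fin n → F)), IsMDecomposition m D ∧ G ≤ decompositionStabilizer D) ∨
    (∃ (r : ℕ) (K : Subalgebra F (Matrix (Fin n) (Fin n) F)), r.Prime ∧ IsFieldSubalgebra r K ∧
      G ≤ subalgebraNormalizer K) ∨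
    (∃ (a b : ℕ) (e : Fin n ≃ Fin a × Fin b) (P : GL (Fin n) F), 2 ≤ a ∧ 2 ≤ b ∧
      G ≤ tensorProductSubgroup a b e P) ∨
    N ≤ scalars (Fin n) F ∨ ActsAbsolutelyIrreducibly (matrixSet N) := by
  have hA : G ≤ subalgebraNormalizer (spanAlg N) := spanAlg_norm G N hnorm
  obtain ⟨I, hI⟩ := exists_minIdl hn (spanAlg N)
  by_cases hinv : ∀ g ∈ G, ∀ x ∈ I, conjA g x ∈ I
  · obtain ⟨U, hU⟩ := ideal_faith hn G hG (spanAlg N) hA I hI hinv
    have hc := cen_field (spanAlg N) U hU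
    by_cases h1 : Module.finrank F (cen (spanAlg N)) = 1
    · obtain ⟨a, φ, ha, hφ⟩ := dens (spanAlg N) U hU h1
      obtain ⟨b, e, P, hk⟩ := Cfsg.Agent.Lib.Helper5.AschC.tens ha φ
      have hle : G ≤ tensorProductSubgroup a b e P := hA.trans (hφ ▸ ntens hn e P φ hk)
      have hab : a * b = n := by
        have := Fintype.card_congr e
        simpa using this.symm
      by_cases ha1 : a = 1
      · subst ha1
        exact Or.inr (Or.inr (Or.inr (Or.inl (le_scalars_of_range hn φ N hφ))))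
      by_cases hb1 : b = 1
      · subst hb1
        rw [mul_one] at hab
        subst hab
        exact Or.inr (Or.inr (Or.inr (Or.inr (absIrr_of_range hn φ N hφ))))
      have hb0 : b ≠ 0 := by
        rintro rfl
        omega
      exact Or.inr (Or.inr (Or.inl ⟨a, b, e, P, by omega, by omega, hle⟩))
    · have h0 : Module.finrank F (cen (spanAlg N)) ≠ 0 := by
        intro h0
        have : Nonempty (Fin n) := ⟨⟨0, hn⟩⟩
        have hs : Subsingleton (cen (spanAlg N)) := Module.finrank_zero_iff.1 h0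
        have h01 : (0 : cen (spanAlg N)) = 1 := Subsingleton.elim _ _
        have h01' : (0 : Matrix (Fin n) (Fin n) F) = 1 := congrArg Subtype.val h01
        exact zero_ne_one h01'
      obtain ⟨r, K', hr, hK', hle⟩ := exists_prime_subfieldAlg _ (by omega) _ hc
      exact Or.inr (Or.inl ⟨r, K', hr, hK', (hA.trans (cen_norm _)).trans hle⟩)
  · obtain ⟨t, J, ht, hne, hmul, hperm, htrans⟩ := orbit_family G (spanAlg N) hA I hI hinv
    obtain ⟨m, D, hD, hle⟩ := decomp_of_family hn G hG J ht hne hmul hperm htrans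
    exact Or.inl ⟨t, m, D, hD, hle⟩

theorem prime_dvd_four {r : ℕ} (hr : r.Prime) (h : r ∣ 4) : r = 2 := by
  have h' : r ∣ 2 ^ 2 := by norm_num; exact h
  exact (Nat.prime_dvd_prime_iff_eq hr Nat.prime_two).1 (hr.dvd_of_dvd_pow h')

theorem two_two {a b : ℕ} (ha : 2 ≤ a) (hb : 2 ≤ b) (h : a * b = 4) : a = 2 ∧ b = 2 := by
  have ha4 : a ≤ 4 := Nat.le_of_dvd (by norm_num) ⟨b, h.symm⟩
  interval_cases a <;> omega

theorem normal_cases4 [Fintype F] (H N : Subgroup (GL (Fin 4) F)) (hnorm : NormBy H N)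
    (hH : ActsIrreducibly (matrixSet H)) :
    InGeo4 H ∨ N ≤ scalars (Fin 4) F ∨ ActsAbsolutelyIrreducibly (matrixSet N) := by
  rcases cliffC (by norm_num) H N hnorm hH with ⟨t, m, D, hD, hle⟩ | ⟨r, K, hr, hK, hle⟩ |
    ⟨a, b, e, P, ha, hb, hle⟩ | h | h
  · left
    have htm := Cfsg.Agent.Lib.Helper5.AschC.decomp_dim D hD
    have h2 := hD.two_le
    have hm := hD.pos
    have ht4 : t ≤ 4 := Nat.le_of_dvd (by norm_num) ⟨m, htm.symm⟩
    have hc : (t = 4 ∧ m = 1) ∨ (t = 2 ∧ m = 2) := by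
      interval_cases t <;> omega
    rcases hc with ⟨rfl, rfl⟩ | ⟨rfl, rfl⟩
    · exact Or.inr (Or.inl ⟨D, hD, hle⟩)
    · exact Or.inr (Or.inr (Or.inl ⟨D, hD, hle⟩))
  · left
    have h2 := prime_dvd_four hr (deg_dvd (by norm_num) r K hK)
    subst h2
    exact Or.inr (Or.inr (Or.inr (Or.inl ⟨K, hK, hle⟩)))
  · left
    have hab : a * b = 4 := by
      have := Fintype.card_congr e
      simpa using this.symm
    obtain ⟨rfl, rfl⟩ := two_two ha hb hab
    obtain ⟨Q, hQ, hQle⟩ := tensor22_quad e P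
    exact geo_of_quadSim H Q hQ (hle.trans hQle)
  · exact Or.inr (Or.inl h)
  · exact Or.inr (Or.inr h)

theorem nonab_cases [Fintype F] (N : Subgroup (GL (Fin 4) F))
    (hN : ActsIrreducibly (matrixSet N)) (hPZ : ⁅N, N⁆ ⊔ scalars (Fin 4) F = N)
    (hperf : ⁅⁅N, N⁆, ⁅N, N⁆⁆ = ⁅N, N⁆)
    (hPabs : ActsAbsolutelyIrreducibly (matrixSet ⁅N, N⁆))
    (M : Subgroup (GL (Fin 4) F)) (hnorm : NormBy N M) :
    (∃ Q : (Fin 4 → F) → F, IsNondegenerateQuadraticForm Q ∧ FixesQuadForm (matrixSet ⁅N, N⁆) Q) ∨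
    (Group.IsSolvable M ∨
      ∀ a ∈ N, ∀ b ∈ N, (∀ y ∈ M, a * y = y * a) → (∀ y ∈ M, b * y = y * b) → a * b = b * a) := by
  rcases cliffC (by norm_num) N M hnorm hN with ⟨t, m, D, hD, hle⟩ | ⟨r, K, hr, hK, hle⟩ |
    ⟨a, b, e, P, ha, hb, hle⟩ | h | h
  · have htm := Cfsg.Agent.Lib.Helper5.AschC.decomp_dim D hD
    have ht4 : t ≤ 4 := Nat.le_of_dvd (by norm_num) ⟨m, htm.symm⟩
    exact absurd hN (not_irr_of_decomp N hPZ hperf ht4 D hD hle)
  · exfalso
    have h2 := prime_dvd_four hr (deg_dvd (by norm_num) r K hK)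
    subst h2
    have hc := commutator_centralizes_field N K hK hle
    have hbot : K = ⊥ := by
      rw [eq_bot_iff]
      intro k hk
      obtain ⟨c, hc'⟩ := hPabs.2 k (by
        rintro _ ⟨g, hg, rfl⟩
        exact (hc g hg k hk).symm)
      rw [Algebra.mem_bot]
      exact ⟨c, by rw [hc', Algebra.algebraMap_eq_smul_one]⟩
    have h2 := hK.finrank_eq
    rw [hbot, Subalgebra.finrank_bot] at h2
    exact absurd h2 (by norm_num)
  · left
    have hab : a * b = 4 := by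
      have := Fintype.card_congr e
      simpa using this.symm
    obtain ⟨rfl, rfl⟩ := two_two ha hb hab
    obtain ⟨Q, hQ, hQle⟩ := tensor22_quad e P
    exact ⟨Q, hQ, commutator_fixes_quad N Q (hle.trans hQle)⟩
  · right; left
    exact Group.isSolvable_of_comm (fun a b => Subtype.ext ((scalars_central a.1 (h a.2) b.1).symm))
  · right; right
    intro a _ b _ ha _
    have hz := mem_scalars_of_commute (by norm_num) M h a ha
    exact (scalars_central a hz b).symm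

open Cfsg.Agent.Lib.Helper77.AschG in
theorem c6_geo [Fintype F] (H N : Subgroup (GL (Fin 4) F)) (hm : MinOver H (scalars (Fin 4) F) N)
    (hab : ⁅N, N⁆ ≤ scalars (Fin 4) F) (hN : ActsAbsolutelyIrreducibly (matrixSet N)) : InGeo4 H := by
  obtain ⟨r, hr, hexp⟩ := exists_prime_exp H _ N (fun z hz g => scalars_central z hz g) hm hab
  obtain ⟨m, hm1, h4⟩ := dim_prime_pow (by norm_num) r hr N hm.lt.le hab hN hexp
  have hr2 : r = 2 := prime_dvd_four hr (by rw [h4]; exact dvd_pow_self r (by omega))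
  subst hr2
  obtain ⟨R, hsup, hRn, hmem⟩ := exists_expSub_two (by norm_num) H N hm hab hN hexp
  have hRabs : ActsAbsolutelyIrreducibly (matrixSet R) := absIrr_of_sup R (by rw [hsup]; exact hN)
  have hRN : R ≤ N := hsup ▸ le_sup_left
  have hRab : ⁅R, R⁆ ≤ scalars (Fin 4) F := (Subgroup.commutator_mono hRN hRN).trans hab
  have hle : H ≤ subgroupNormalizer R := le_normalizer_of_normBy hRn
  have hexp4 : ∀ g ∈ R, g ^ 4 = 1 := fun g hg => ((hmem g).1 hg).2
  have h2F : (2 : F) ≠ 0 := by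
    obtain ⟨x, hx, y, hy, c, hc1, hxy⟩ := exists_noncomm (by norm_num) N hab hN
    have hc2 := pair_pow (by norm_num) 2 x y c hxy (hexp x hx)
    intro h2
    apply hc1
    have h' : (c : F) ^ 2 = 1 := by rw [← Units.val_pow_eq_pow_val, hc2, Units.val_one]
    have h0 : ((c : F) - 1) ^ 2 = 0 := by linear_combination h' + (1 - (c : F)) * h2
    exact Units.ext (sub_eq_zero.1 (pow_eq_zero_iff (two_ne_zero)|>.1 h0))
  by_cases hw : ∃ w : Fˣ, orderOf w = 4
  · obtain ⟨w, hw⟩ := hw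
    rcases field_cases_four w hw with ⟨F₀, hF₀, hwF⟩ | ⟨p, hp2, hmin⟩ | ⟨σ, h1, h2, h3⟩
    · obtain ⟨b, hb⟩ := exists_monomial_basis (by norm_num) R hRab hRabs.1 4 (by norm_num) w hw hexp4
      obtain ⟨B, hB⟩ := realisable_of_monomial R 4 b hb F₀ (fun c hc => by
        obtain ⟨k, rfl⟩ := eq_pow_of_root 4 (by norm_num) w hw c hc
        exact pow_mem hwF k)
      obtain ⟨F₁, r, hle1, hr, hcard⟩ := exists_prime_subfield F₀ hF₀
      exact Or.inr (Or.inr (Or.inr (Or.inr (Or.inl ⟨F₁, r, B⁻¹, hr, hcard,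
        hle.trans ((normalizer_le_subfield (by norm_num) R hRabs F₀ B hB).trans
          (subfieldSubgroup_mono hle1 _))⟩))))
    · have hc : Nat.card (Subgroup.center R) = 4 :=
        card_center (by norm_num) N R 4 (by norm_num) hmem hm.lt.le hRabs w hw
      have hcard : Nat.card R = 2 ^ (2 + 2 * 2) := by
        rw [card_expSub (by norm_num) N R hsup hab hN, hc]
        norm_num
      have hwR : (sc w : GL (Fin 4) F) ∈ R :=
        (hmem _).2 ⟨hm.lt.le (ex1_sc_mem w), by rw [ex1_sc_pow, ← hw, pow_orderOf_eq_one, ex1_sc_one]⟩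
      refine Or.inr (Or.inr (Or.inr (Or.inr (Or.inr (Or.inl ⟨R, ⟨⟨Nat.prime_two, ?_, ?_, ?_⟩, hRabs,
        ⟨p, 1, hp2, by rw [hc]; exact hmin, Or.inr (Or.inl ⟨rfl, rfl, hc, by simp, 2, hcard⟩)⟩⟩, hle⟩)))))
      · intro g
        exact ⟨2, Subtype.ext (by simpa using hexp4 g g.2)⟩
      · intro A hA hcA
        exact char_abelian_cyclic (by norm_num) H N R hm hN hsup hRn A hA hcA
      · rw [exponent_expSub (by norm_num) R 4 hexp4 w hw hwR]
        rfl
    · obtain ⟨b, hb⟩ := exists_monomial_basis (by norm_num) R hRab hRabs.1 4 (by norm_num) w hw hexp4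
      obtain ⟨f, hf, hfix⟩ := unitary_of_monomial R 4 b hb σ h1 h2 (fun c hc => by
        obtain ⟨k, rfl⟩ := eq_pow_of_root 4 (by norm_num) w hw c hc
        rw [map_pow, h3, ← mul_pow, mul_inv_cancel₀ w.ne_zero, one_pow])
      exact Or.inr (Or.inr (Or.inr (Or.inr (Or.inr (Or.inr (Or.inr (Or.inr ⟨σ, f, hf,
        hle.trans (normalizer_le_unitarySim R hRabs σ f hf hfix)⟩)))))))
  · have hz : ∀ z ∈ R, z ∈ scalars (Fin 4) F → z ^ 2 = 1 := by
      rintro _ hzR ⟨c, rfl⟩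
      have h4 : c ^ 4 = 1 := by
        have h := hexp4 _ hzR
        change (sc c : GL (Fin 4) F) ^ 4 = 1 at h
        rw [ex1_sc_pow] at h
        have h00 := congrArg (fun g : GL (Fin 4) F => (g : Matrix (Fin 4) (Fin 4) F) 0 0) h
        simp only [hb_sc_coe] at h00
        exact Units.ext (by simpa using h00)
      have hord : orderOf c ∣ 4 := orderOf_dvd_of_pow_eq_one h4
      have hne4 : orderOf c ≠ 4 := fun h => hw ⟨c, h⟩
      have hle4 : orderOf c ≤ 4 := Nat.le_of_dvd (by norm_num) hord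
      have h2' : orderOf c ∣ 2 := by
        interval_cases h : orderOf c
        · exact absurd hord (by decide)
        · decide
        · decide
        · exact absurd hord (by decide)
        · exact absurd rfl hne4
      change (sc c : GL (Fin 4) F) ^ 2 = 1
      rw [ex1_sc_pow, orderOf_dvd_iff_pow_eq_one.1 h2', ex1_sc_one]
    rcases exists_bilinear (by norm_num) h2F R hRab hRabs hz with ⟨Q, hQ, hfix⟩ | ⟨f, hf, hfix⟩
    · exact geo_of_fixes_quad H R hRabs hle Q hQ hfix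
    · exact Or.inr (Or.inr (Or.inr (Or.inr (Or.inr (Or.inr (Or.inr (Or.inl ⟨f, hf,
        hle.trans (Sl4.normalizer_le_sympSim R hRabs f hf hfix)⟩)))))))

theorem main4 [Fintype F] (H : Subgroup (GL (Fin 4) F)) : InGeo4 H ∨ InLinearResidualClass H := by
  classical
  by_cases hirr : ActsIrreducibly (matrixSet H)
  swap
  · obtain ⟨W, h0, h1, hle⟩ := red H hirr
    exact Or.inl (Or.inl ⟨W, h0, h1, hle⟩)
  obtain ⟨Z, hZ⟩ : ∃ Z, Z = scalars (Fin 4) F := ⟨_, rfl⟩
  have hZc : ∀ z ∈ Z, ∀ g : GL (Fin 4) F, g * z = z * g := by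
    intro z hz g
    exact scalars_central z (hZ ▸ hz) g
  obtain ⟨Hh, hHh⟩ : ∃ Hh, Hh = H ⊔ Z := ⟨_, rfl⟩
  have hHle : H ≤ Hh := hHh ▸ le_sup_left
  have hZle : Z ≤ Hh := hHh ▸ le_sup_right
  have hirr' : ActsIrreducibly (matrixSet Hh) := irr_mono (matrixSet_mono hHle) hirr
  have hZlt : Z < Hh := by
    refine lt_of_le_of_ne hZle (fun h => ?_)
    exact not_irr_of_le_scalars (by norm_num) H (hZ ▸ h ▸ hHle) hirr
  obtain ⟨N, hm⟩ := exists_minOver Hh Z hZlt
  suffices InGeo4 Hh ∨ InLinearResidualClass H by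
    rcases this with h | h
    · exact Or.inl (h.mono hHle)
    · exact Or.inr h
  rcases normal_cases4 Hh N hm.norm hirr' with h | h | hNabs
  · exact Or.inl h
  · exact absurd (hZ ▸ h) (not_le_of_gt hm.lt)
  by_cases hab : ⁅N, N⁆ ≤ Z
  · left
    exact c6_geo Hh N (hZ ▸ hm) (hZ ▸ hab) hNabs
  · obtain ⟨P, hP⟩ : ∃ P, P = ⁅N, N⁆ := ⟨_, rfl⟩
    obtain ⟨hperf, hPZ⟩ := perfect_core Hh Z N hZc hm hab
    rw [← hP] at hperf hPZ hab
    have hPnorm : NormBy Hh P := hP ▸ normBy_commutator hm.norm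
    have hPN : P ≤ N := hPZ ▸ le_sup_left
    have hPle : P ≤ Hh := hPN.trans hm.le
    rcases normal_cases4 Hh P hPnorm hirr' with h | h | hPabs
    · exact Or.inl h
    · exact absurd (hZ ▸ h) hab
    have hnormH : Hh ≤ subgroupNormalizer P := le_normalizer_of_normBy hPnorm
    by_cases hq : ∃ Q : (Fin 4 → F) → F, IsNondegenerateQuadraticForm Q ∧ FixesQuadForm (matrixSet P) Q
    · obtain ⟨Q, hQ, hfix⟩ := hq
      exact Or.inl (geo_of_fixes_quad Hh P hPabs hnormH Q hQ hfix)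
    have hsimple := simple_of_minOver Hh Z N hZc hm (hP ▸ hab)
      (fun M _ hMn => (nonab_cases N hNabs.1 (by rw [← hP, ← hZ]; exact hPZ) (hP ▸ hperf) (hP ▸ hPabs) M hMn).resolve_left
        (hP ▸ hq))
    by_cases hsub : ∃ F₀ : Subfield F, F₀ ≠ ⊤ ∧ RealisableOver F₀ (matrixSet P)
    · left
      obtain ⟨F₀, hF₀, B, hB⟩ := hsub
      obtain ⟨F₁, r, hle1, hr, hcard⟩ := exists_prime_subfield F₀ hF₀
      exact Or.inr (Or.inr (Or.inr (Or.inr (Or.inl ⟨F₁, r, B⁻¹, hr, hcard,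
        hnormH.trans ((normalizer_le_subfield (by norm_num) P hPabs F₀ B hB).trans
          (subfieldSubgroup_mono hle1 _))⟩))))
    by_cases hs : ∃ f : (Fin 4 → F) → (Fin 4 → F) → F, IsSymplecticForm f ∧ FixesForm (matrixSet P) f
    · left
      obtain ⟨f, hf, hfix⟩ := hs
      exact Or.inr (Or.inr (Or.inr (Or.inr (Or.inr (Or.inr (Or.inr (Or.inl ⟨f, hf,
        hnormH.trans (normalizer_le_sympSim P hPabs f hf hfix)⟩)))))))
    by_cases hu : ∃ (σ : F ≃+* F) (f : (Fin 4 → F) → (Fin 4 → F) → F),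
        IsUnitaryForm σ f ∧ FixesForm (matrixSet P) f
    · left
      obtain ⟨σ, f, hf, hfix⟩ := hu
      exact Or.inr (Or.inr (Or.inr (Or.inr (Or.inr (Or.inr (Or.inr (Or.inr ⟨σ, f, hf,
        hnormH.trans (normalizer_le_unitarySim P hPabs σ f hf hfix)⟩)))))))
    right
    subst hZ
    refine ⟨P, ⟨?_, ?_, hperf, ?_, ?_, ?_, hPabs, ?_⟩, hq, hs, hu⟩
    · calc P ≤ ⁅Hh, Hh⁆ := hP ▸ Subgroup.commutator_mono hm.le hm.le
        _ ≤ H := hHh ▸ commutator_sup_le H _ hZc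
    · intro h hh x hx
      exact hPnorm h (hHle hh) x hx
    · exact simple_quot _ N P hPZ hm.lt hsimple
    · exact nonabelian_quot _ P (by rw [hperf]; exact hab)
    · intro h _ hx
      exact mem_scalars_of_commute (by norm_num) P hPabs h (centralizes_of_perfect _ P hZc hperf h hx)
    · intro F₀ hF₀ hr
      exact hsub ⟨F₀, hF₀, hr⟩

end Cfsg.Agent.Lib.Helper8.Sl4
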