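import Cfsg.Agent.Lib.Helper8.Sl4.Defs

set_option autoImplicit false

namespace Cfsg.Agent.Lib.Helper8.Sl4

open Cfsg Cfsg.Geo Cfsg.Agent.Lib.Helper77.Asch
open scoped MatrixGroups Matrix

variable {n : ℕ} {F : Type*} [Field F]

section abstract
variable {R : Type*} [Group R]

theorem syt1_cc {c g h : R} (hg : g * c = c * g) (hh : h * c = c * h) :
    (g * h) * c = c * (g * h) := by
  rw [mul_assoc, hh, ← mul_assoc, hg, mul_assoc]

theorem syt1_ca {z c g h : R} (hz : ∀ g, g * z = z * g) (hg : g * c = c * g)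
    (hh : h * c = z * (c * h)) : (g * h) * c = z * (c * (g * h)) := by
  calc (g * h) * c = g * (h * c) := mul_assoc _ _ _
    _ = (g * z) * (c * h) := by rw [hh, mul_assoc]
    _ = z * ((g * c) * h) := by rw [hz g, mul_assoc, mul_assoc]
    _ = z * (c * (g * h)) := by rw [hg, mul_assoc]

theorem syt1_ac {z c g h : R} (hg : g * c = z * (c * g)) (hh : h * c = c * h) :
    (g * h) * c = z * (c * (g * h)) := by
  calc (g * h) * c = g * (h * c) := mul_assoc _ _ _
    _ = (g * c) * h := by rw [hh, mul_assoc]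
    _ = z * (c * (g * h)) := by rw [hg, mul_assoc, mul_assoc]

theorem syt1_aa {z c g h : R} (hz : ∀ g, g * z = z * g) (hz2 : z * z = 1)
    (hg : g * c = z * (c * g)) (hh : h * c = z * (c * h)) : (g * h) * c = c * (g * h) := by
  calc (g * h) * c = g * (h * c) := mul_assoc _ _ _
    _ = (g * z) * (c * h) := by rw [hh, mul_assoc]
    _ = z * ((g * c) * h) := by rw [hz g, mul_assoc, mul_assoc]
    _ = (z * z) * (c * (g * h)) := by rw [hg]; simp only [mul_assoc]
    _ = c * (g * h) := by rw [hz2, one_mul]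

theorem syt1_ne {z x y : R} (hz1 : z ≠ 1) (h : x = z * y) : x ≠ y := by
  intro hxy
  apply hz1
  rw [hxy] at h
  exact (mul_eq_right.1 h.symm)

open Classical in
/-- the "transvection" endomorphism -/
noncomputable def syt1Hom (z c : R) (hz : ∀ g, g * z = z * g) (hz2 : z * z = 1) (hz1 : z ≠ 1)
    (hc2 : c * c = z) (hcomm : ∀ g, g * c = c * g ∨ g * c = z * (c * g)) : R →* R where
  toFun g := if g * c = c * g then g else g * c
  map_one' := by simp
  map_mul' g h := by
    have anti : ∀ g, g * c ≠ c * g → g * c = z * (c * g) := fun g hg => (hcomm g).resolve_left hg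
    by_cases hg : g * c = c * g <;> by_cases hh : h * c = c * h
    · rw [if_pos (syt1_cc hg hh), if_pos hg, if_pos hh]
    · rw [if_neg (syt1_ne hz1 (syt1_ca hz hg (anti h hh))), if_pos hg, if_neg hh, mul_assoc]
    · rw [if_neg (syt1_ne hz1 (syt1_ac (anti g hg) hh)), if_neg hg, if_pos hh, mul_assoc, hh,
        mul_assoc]
    · rw [if_pos (syt1_aa hz hz2 (anti g hg) (anti h hh)), if_neg hg, if_neg hh, anti h hh]
      calc g * h = (z * z) * (g * h) := by rw [hz2, one_mul]
        _ = g * (z * z) * h := by rw [← hc2]; simp only [hc2, mul_assoc, hz2, one_mul]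
        _ = g * c * (z * (c * h)) := by
            rw [← mul_assoc (g * c) z, mul_assoc g c z, hz c, ← hc2]
            simp only [mul_assoc]

theorem syt1_abs [Finite R] (z c : R) (hz : ∀ g, g * z = z * g) (hz2 : z * z = 1) (hz1 : z ≠ 1)
    (hc2 : c * c = z) (hcomm : ∀ g, g * c = c * g ∨ g * c = z * (c * g)) :
    ∃ φ : R ≃* R, ∀ a, a * c ≠ c * a → φ a * a ≠ a * φ a := by
  classical
  set f := syt1Hom z c hz hz2 hz1 hc2 hcomm with hf
  have hfa : ∀ g, f g = if g * c = c * g then g else g * c := fun g => rfl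
  have hinj : Function.Injective f := by
    rw [injective_iff_map_eq_one]
    intro g hg
    rw [hfa] at hg
    by_cases h : g * c = c * g
    · rwa [if_pos h] at hg
    · rw [if_neg h] at hg
      exfalso
      apply h
      have : g = c⁻¹ := eq_inv_of_mul_eq_one_left hg
      rw [this]; simp
  refine ⟨MulEquiv.ofBijective f ⟨hinj, Finite.surjective_of_injective hinj⟩, ?_⟩
  intro a ha
  show f a * a ≠ a * f a
  rw [hfa, if_neg ha]
  intro h
  apply ha
  rw [mul_assoc] at h
  exact (mul_left_cancel h).symm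

end abstract

theorem syt1_sc_mul (c d : Fˣ) : (sc (c * d) : GL (Fin n) F) = sc c * sc d := by
  unfold sc
  rw [map_mul]

theorem syt1_sc_ne (hn : 0 < n) (h2 : (2 : F) ≠ 0) : (sc (-1 : Fˣ) : GL (Fin n) F) ≠ 1 := by
  intro h
  have h1 := congrArg (fun g : GL (Fin n) F =>
    (g : Matrix (Fin n) (Fin n) F) ⟨0, hn⟩ ⟨0, hn⟩) h
  simp [sc] at h1
  apply h2
  linear_combination -h1

theorem exists_transvection_aut [Finite F] (R : Subgroup (GL (Fin 4) F)) (h : Ex4 R) (i : F) (hi : i ^ 2 = -1)
    (a b : R) (hab : a * b ≠ b * a) : ∃ φ : R ≃* R, φ a * a ≠ a * φ a := by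
  have hi0 : i ≠ 0 := by
    rintro rfl
    simp at hi
  set iu : Fˣ := Units.mk0 i hi0 with hiu
  have hiu2 : iu * iu = -1 := by
    apply Units.ext
    simp only [hiu, Units.val_mul, Units.val_mk0, Units.val_neg, Units.val_one]
    rw [← hi]; ring
  have hm1 : (-1 : Fˣ) * (-1) = 1 := by simp
  -- the central elements
  have hzR : (sc (-1 : Fˣ) : GL (Fin 4) F) ∈ R := by
    apply h.sat _ (ex1_sc_mem _)
    rw [ex1_sc_pow]
    have : (-1 : Fˣ) ^ 4 = 1 := by
      rw [show (4 : ℕ) = 2 * 2 from rfl, pow_mul]; simp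
    rw [this, ex1_sc_one]
  have hiR : (sc iu : GL (Fin 4) F) ∈ R := by
    apply h.sat _ (ex1_sc_mem _)
    rw [ex1_sc_pow]
    have : iu ^ 4 = 1 := by
      rw [show (4 : ℕ) = 2 * 2 from rfl, pow_mul, pow_two iu, hiu2]; simp
    rw [this, ex1_sc_one]
  set z : R := ⟨sc (-1 : Fˣ), hzR⟩ with hzdef
  have hz : ∀ g : R, g * z = z * g := fun g => Subtype.ext (ex1_sc_comm _ _)
  have hz2 : z * z = 1 := by
    apply Subtype.ext
    show (sc (-1 : Fˣ) : GL (Fin 4) F) * sc (-1) = 1
    rw [← syt1_sc_mul, hm1, ex1_sc_one]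
  have hz1 : z ≠ 1 := by
    intro hh
    exact syt1_sc_ne (by norm_num) h.two (congrArg Subtype.val hh)
  have hfin : Finite (GL (Fin 4) F) := inferInstance
  -- the element c
  obtain ⟨c, hc2, hcb⟩ : ∃ c : R, c * c = z ∧ ∀ g : R, g * c = c * g ↔ g * b = b * g := by
    rcases h.sq b.1 b.2 with hb | hb
    · refine ⟨⟨sc iu, hiR⟩ * b, ?_, ?_⟩
      · apply Subtype.ext
        show (sc iu : GL (Fin 4) F) * b.1 * (sc iu * b.1) = sc (-1)
        rw [mul_assoc, ← mul_assoc b.1, ex1_sc_comm iu b.1, mul_assoc, ← pow_two, hb, mul_one,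
          ← syt1_sc_mul, hiu2]
      · intro g
        constructor
        · intro hg
          apply Subtype.ext
          have h1 := congrArg Subtype.val hg
          simp only [Subgroup.coe_mul] at h1 ⊢
          rw [← mul_assoc, ex1_sc_comm iu g.1, mul_assoc, mul_assoc] at h1
          exact mul_left_cancel h1
        · intro hg
          apply Subtype.ext
          have h1 := congrArg Subtype.val hg
          simp only [Subgroup.coe_mul] at h1 ⊢
          rw [← mul_assoc, ex1_sc_comm iu g.1, mul_assoc, mul_assoc, h1]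
    · refine ⟨b, ?_, fun g => Iff.rfl⟩
      apply Subtype.ext
      show b.1 * b.1 = sc (-1)
      rw [← pow_two, hb]
  have hcomm : ∀ g : R, g * c = c * g ∨ g * c = z * (c * g) := by
    intro g
    rcases h.comm g.1 g.2 c.1 c.2 with h1 | h1
    · exact Or.inl (Subtype.ext h1)
    · exact Or.inr (Subtype.ext h1)
  obtain ⟨φ, hφ⟩ := syt1_abs z c hz hz2 hz1 hc2 hcomm
  exact ⟨φ, hφ a (fun hh => hab ((hcb a).1 hh))⟩

end Cfsg.Agent.Lib.Helper8.Sl4
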